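import Cfsg.Agent.H21.Co2
import Cfsg.Agent.H21.Leech14
import Cfsg.Agent.H16.Lc2

/-! Upper bounds for subgroups of `Co0` fixing a minimal vector, by counting inner products. -/

set_option autoImplicit false
set_option exponentiation.threshold 1000
set_option maxRecDepth 100000

namespace Cfsg.Agent.H6.CoA

open Cfsg Cfsg.Agent.H16 Cfsg.Agent.LL MulAction
open scoped Pointwise

def Fx (H : Subgroup Co0) (F : List ℕ) : Prop := ∀ a ∈ F, ∃ v : L, (v : V) = vec a ∧ ∀ g ∈ H, g • v = v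

/-- instructions `(i, c, D)`: for `i < 4600` fix the table point `i` with code `c`; otherwise `c` is an image -/
noncomputable def chk (ms : List ℕ) (ok : ℕ → ℕ → Bool) : List (ℕ × ℕ × List (ℕ × ℕ)) → List ℕ → List ℕ → ℕ → Bool
  | [], _, I, N => andB (allL b2 fun b => anyL I (Nat.beq b)) (Nat.ble 1 N)
  | (i, c, D) :: r, F, I, N => ifB (Nat.blt i 4600)
      (andB (andB (ptIs T4600 i c) (allP D fun a d => andB (orB (anyL F (Nat.beq a)) (ok c a))
        (Nat.beq (H16.get 96 (dots 4600 T4600 a) i) d)))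
        (force (cntD 4600 T4600 D) fun n => force (Nat.div N n) fun N' => chk ms ok r (c :: F) (i :: I) N'))
      (andB (anyL ms fun m => anyP D fun a _ => andB (anyL F (Nat.beq a)) (mv m a c)) (chk ms ok r (c :: F) I N))

theorem mem_of_anyL {l : List ℕ} {a : ℕ} (h : anyL l (Nat.beq a) = true) : a ∈ l := by
  obtain ⟨b, hb, e⟩ := anyL_iff.mp h
  rwa [Nat.eq_of_beq_eq_true e]

theorem chk_sound {ms : List ℕ} {ok : ℕ → ℕ → Bool} (prog : List (ℕ × ℕ × List (ℕ × ℕ))) {F I : List ℕ} {N : ℕ}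
    {H : Subgroup Co0} (hU : ∀ g ∈ H, g • U = U) (hm : ∀ m ∈ ms, ∃ α, MIs α m ∧ ∀ g ∈ H, g * α = α * g)
    (hok : ∀ c a, ok c a = true → ∀ x : L, (x : V) = vec c → ∀ g ∈ H, dotInt (vec a) (g • x : L) = dotInt (vec a) x)
    (hF : Fx H F) (hI : ∀ i ∈ I, ∀ g ∈ H, g • tpt T4600 i = tpt T4600 i) (h : chk ms ok prog F I N = true) :
    Nat.card H ≤ N := by
  induction prog generalizing F I N H with
  | nil =>
    rw [chk, andB_iff] at h
    have : H = ⊥ := eq_bot_iff.mpr fun g hg => base_of_lbChain inj2 b2 (by decide) K2 sgen2.1 (card_K2.trans lb2.symm).le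
      (hU g hg) fun b hb => by
        rw [pt2, ppt, smul_pr (by rw [smul_neg, hU g hg]), hI b (mem_of_anyL (allL_iff.mp h.1 b hb)) g hg]
    rw [this, Subgroup.card_bot]
    exact Nat.le_of_ble_eq_true h.2
  | cons e r ih =>
    obtain ⟨i, c, D⟩ := e
    rw [chk, ifB_eq] at h
    split_ifs at h with hi
    · simp only [andB_iff, force_eq, allP_iff, orB_iff, Nat.beq_eq] at h
      obtain ⟨⟨h1, h2⟩, h3⟩ := h
      have hi' : i < 2 * 2300 := Nat.blt_eq.mp hi
      have hc := tab4600.ptIs hi' h1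
      have h4 := ih (H := H ⊓ stabilizer Co0 (tpt T4600 i)) (fun g hg => hU g hg.1)
        (fun m hm' => let ⟨α, a1, a2⟩ := hm m hm'; ⟨α, a1, fun g hg => a2 g hg.1⟩)
        (fun c a e x hx g hg => hok c a e x hx g hg.1)
        (List.forall_mem_cons.mpr ⟨⟨_, hc, fun g hg => hg.2⟩,
          fun a ha => let ⟨v, a1, a2⟩ := hF a ha; ⟨v, a1, fun g hg => a2 g hg.1⟩⟩)
        (List.forall_mem_cons.mpr ⟨fun g hg => hg.2, fun j hj g hg => hI j hj g hg.1⟩) h3
      have h5 : (orbit H (tpt T4600 i)).ncard ≤ cntD 4600 T4600 D := by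
        rw [← tab4600.ncard_dots D]
        refine Set.ncard_le_ncard ?_ ((XA.finite _ _).subset fun x hx => hx.1)
        rintro _ ⟨g, rfl⟩
        refine ⟨XA.smul (hU g g.2) (tab4600.pt_mem hi'), fun e he => ?_⟩
        rw [← (h2 e he).2, tab4600.dots e.1 hi']
        congr 1
        rcases (h2 e he).1 with a | a
        · obtain ⟨v, a1, a2⟩ := hF _ (mem_of_anyL a)
          rw [← a1]; exact dot_fix (a2 g g.2) _
        · exact hok _ _ a _ hc g g.2
      rw [card_eq_orbit_mul H (tpt T4600 i)]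
      exact (Nat.mul_le_mul h5 h4).trans (Nat.mul_div_le _ _)
    · obtain ⟨h1, h2⟩ := andB_iff.mp h
      obtain ⟨m, hm', h1⟩ := anyL_iff.mp h1
      obtain ⟨e, -, h1⟩ := anyP_iff.mp h1
      obtain ⟨v, a1, a2⟩ := hF _ (mem_of_anyL (andB_iff.mp h1).1)
      obtain ⟨α, b1, b2⟩ := hm m hm'
      exact ih hU hm hok (List.forall_mem_cons.mpr ⟨⟨α • v, Lc.mv_spec b1 (andB_iff.mp h1).2 a1, fun g hg => by
        rw [← mul_smul, b2 g hg, mul_smul, a2 g hg]⟩, hF⟩) hI h2

theorem fx_U {H : Subgroup Co0} (hU : ∀ g ∈ H, g • U = U) : Fx H [aU] :=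
  List.forall_mem_cons.mpr ⟨⟨U, coe_U, hU⟩, by simp⟩

/-- the stabiliser of `U` in the centraliser of one element -/
theorem cent_le {α : Co0} {m : ℕ} (hα : MIs α m) (prog : List (ℕ × ℕ × List (ℕ × ℕ))) {N : ℕ}
    (h : chk [m] (fun _ _ => false) prog [aU] [] N = true) :
    Nat.card (Subgroup.centralizer {α} ⊓ stabilizer Co0 U : Subgroup Co0) ≤ N :=
  chk_sound prog (fun _ hg => hg.2) (List.forall_mem_cons.mpr ⟨⟨α, hα, fun _ hg =>
    Subgroup.mem_centralizer_singleton_iff.mp hg.1⟩, by simp⟩) (by simp) (fx_U fun _ hg => hg.2) (by simp) h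

end Cfsg.Agent.H6.CoA
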