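import Cfsg.Agent.H6.CoA
import Cfsg.Agent.H21.Sect
import Cfsg.Agent.H16.MO

/-! Sections `C(α)/⟨α, -1⟩` of `Co0`. -/

set_option autoImplicit false
set_option maxRecDepth 100000

namespace Cfsg.Agent.H6.CoA

open Cfsg Cfsg.Agent.H16 Cfsg.Agent.LL MulAction Subgroup

noncomputable def cChk (ma m p : ℕ) : Bool := andB (isCo m) (andB (mm m ma p) (mm ma m p))

theorem inM_cent {α : Co0} {ma : ℕ} (hα : MIs α ma) {l : List (ℕ × ℕ)} (h : allP l (cChk ma) = true) :
    ∀ m ∈ l.map Prod.fst, InM (centralizer {α}) m := fun m hm => by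
  obtain ⟨e, he, rfl⟩ := List.mem_map.mp hm
  obtain ⟨h1, h2⟩ := andB_iff.mp (allP_iff.mp h e he)
  obtain ⟨g, hg⟩ := exists_of_isCo h1
  exact ⟨g, mem_centralizer_singleton_iff.mpr ((hg.mm hα (andB_iff.mp h2).1).unique (hα.mm hg (andB_iff.mp h2).2)), hg⟩

abbrev CC (α : Co0) : Subgroup Co0 := centralizer (zpowers α : Set Co0)
abbrev NC (α : Co0) : Subgroup (CC α) := (zpowers α ⊔ center Co0).subgroupOf (CC α)

theorem sec_comm {α g n : Co0} (hg : g ∈ CC α) (hn : n ∈ zpowers α ⊔ center Co0) : n * g = g * n :=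
  mem_centralizer_singleton_iff.mp ((sup_le (fun a ha => mem_centralizer_singleton_iff.mpr (hg a ha))
    (center_le_centralizer _) : _ ≤ centralizer {g}) hn)

instance sec_normal (α : Co0) : (NC α).Normal :=
  ⟨fun n hn g => by rwa [show g * n * g⁻¹ = n from Subtype.ext (by
    rw [coe_mul, coe_mul, ← sec_comm (n := n) g.2 hn, coe_inv, mul_inv_cancel_right])]⟩

theorem card_sec {α : Co0} {p n : ℕ} (ho : orderOf α = p) (hp : Nat.Coprime p 2)
    (hc : Nat.card (centralizer ({α} : Set Co0)) ≤ p * 2 * n) : Nat.card (CC α ⧸ NC α) ≤ n := by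
  have h1 : p * 2 ∣ Nat.card (NC α) := by
    rw [Nat.card_congr (subgroupOfEquivOfLe (sup_le (le_centralizer _) (center_le_centralizer _))).toEquiv]
    exact hp.mul_dvd_of_dvd_of_dvd (by rw [← ho, ← Nat.card_zpowers]; exact card_dvd_of_le le_sup_left)
      (by rw [← card_center]; exact card_dvd_of_le le_sup_right)
  have h2 := card_eq_card_quotient_mul_card_subgroup (NC α)
  rw [← centralizer_zpowers] at hc
  have h3 := Nat.le_of_dvd Nat.card_pos h1
  have h0 : 0 < p * 2 := Nat.pos_of_dvd_of_pos h1 Nat.card_pos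
  refine Nat.le_of_mul_le_mul_left ?_ h0
  calc _ ≤ Nat.card (NC α) * Nat.card (CC α ⧸ NC α) := Nat.mul_le_mul_right _ h3
    _ ≤ _ := by rw [mul_comm, ← h2]; exact hc

theorem sec_equiv {α : Co0} {J : Type*} [Group J] [IsSimpleGroup J] [Finite J]
    (hc : Nat.card (CC α ⧸ NC α) ≤ Nat.card J) (f : J →* CC α ⧸ NC α) (hf : ∃ d, f d ≠ 1) :
    Function.Bijective f := by
  have h1 : Function.Injective f := (MonoidHom.ker_eq_bot_iff f).mp
    ((f.normal_ker.eq_bot_or_eq_top).resolve_right fun e => let ⟨d, hd⟩ := hf; hd (e.ge (mem_top d) : d ∈ f.ker))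
  exact h1.bijective_of_nat_card_le hc

/-- the projection from the image modulo `2` -/
theorem exists_sec (α : Co0) {D : Type*} [Group D] (β : D →* Equiv.Perm Lc.Q)
    (h : ∀ d, β d ∈ (centralizer {α}).map Lc.ρ) :
    ∃ f : D →* CC α ⧸ NC α, ∀ d (x : CC α), Lc.ρ x = β d → f d = (x : CC α ⧸ NC α) :=
  exists_lift (Lc.ρ.comp (CC α).subtype) (QuotientGroup.mk' (NC α))
    (fun x hx => (QuotientGroup.eq_one_iff x).mpr (mem_sup_right (Lc.ker_ρ.le hx))) β fun d =>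
      let ⟨x, hx, e⟩ := h d; ⟨⟨x, (centralizer_zpowers α).ge hx⟩, e⟩

theorem iso_of {α : Co0} {J : Type*} [Group J] [IsSimpleGroup J] [Finite J]
    (hc : Nat.card (CC α ⧸ NC α) ≤ Nat.card J) {LL : Subgroup (Equiv.Perm Lc.Q)} (hle : LL ≤ (centralizer {α}).map Lc.ρ)
    (θ : J →* LL) (h1 : Function.Surjective θ) (nc : ∃ u ∈ LL, ∃ v ∈ LL, u * v ≠ v * u) :
    Nonempty (J ≃* CC α ⧸ NC α) := by
  obtain ⟨f, hf⟩ := exists_sec α (LL.subtype.comp θ) fun d => hle (θ d).2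
  refine ⟨MulEquiv.ofBijective f (sec_equiv hc f ?_)⟩
  by_contra! h
  have key : ∀ l ∈ LL, ∃ x : CC α, x ∈ NC α ∧ Lc.ρ x = l := fun l hl => by
    obtain ⟨d, hd⟩ := h1 ⟨l, hl⟩
    obtain ⟨x, hx, e⟩ := hle hl
    exact ⟨⟨x, (centralizer_zpowers α).ge hx⟩, (QuotientGroup.eq_one_iff _).mp
      ((hf d ⟨x, (centralizer_zpowers α).ge hx⟩ (e.trans (congrArg Subtype.val hd).symm)).symm.trans (h d)), e⟩
  obtain ⟨u, hu, v, hv, n⟩ := nc
  obtain ⟨x, hx, e1⟩ := key u hu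
  obtain ⟨y, -, e2⟩ := key v hv
  exact n (by rw [← e1, ← e2, ← map_mul, ← map_mul, sec_comm (n := x) y.2 hx])

theorem orb_bound {α α' g : Co0} (h : g * α' = α * g) {s : ℕ}
    (hs : Nat.card (centralizer {α'} ⊓ stabilizer Co0 U : Subgroup Co0) ≤ s) :
    Nat.card (centralizer ({α} : Set Co0)) ≤ (orbit (centralizer ({α} : Set Co0)) (g • U)).ncard * s ∧
      orbit (centralizer ({α} : Set Co0)) (g • U) ⊆
        {v : L | sqNorm (v : V) = 32 ∧ dotInt (v : V) (α • v : L) = dotInt (U : V) (α' • U : L)} := by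
  have e : α = g * α' * g⁻¹ := by rw [h, mul_inv_cancel_right]
  refine ⟨?_, ?_⟩
  · rw [card_eq_orbit_mul _ (g • U)]
    refine Nat.mul_le_mul_left _ ((Nat.card_congr (conjEquiv g _ _ fun x => ?_).toEquiv).symm.le.trans hs)
    rw [mem_inf, mem_inf, conj_mem_centralizer g α', conj_mem_stabilizer g, e]
  · rintro _ ⟨c, rfl⟩
    refine ⟨(sqNorm_co _ _).trans ((sqNorm_co _ _).trans norm_U), ?_⟩
    change dotInt (((c : Co0) • g • U : L) : V) ((α • (c : Co0) • g • U : L) : V) = _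
    rw [← mul_smul α, ← mem_centralizer_singleton_iff.mp c.2, mul_smul, dot_co, ← mul_smul α, ← h, mul_smul, dot_co]

end Cfsg.Agent.H6.CoA
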