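import Cfsg.Agent.H6.Fr4
import Cfsg.Agent.H6.Cyc4

/-!
# The centre of a nilpotent block with abelian defect group
-/

set_option autoImplicit false
set_option linter.unusedSectionVars false
set_option linter.style.haveILetI false
set_option warn.classDefReducibility false

namespace Cfsg.Agent.H6

open MonoidAlgebra Cfsg Cfsg.Agent.H3 Cfsg.Agent.H4 Cfsg.Agent.H7
open scoped ComplexConjugate
attribute [local instance] H8.subFintype

variable {M : Ideal AlgInt} [hMm : M.IsMaximal] {G : Type*} [Group G] [Fintype G] {p : ℕ}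
  [Fact p.Prime]

theorem redF_eq_zero_of_isNilpotent {χ : G → ℂ} (hχ : IsCharacter G χ) {a : (Res M)[G]}
    (ha : IsNilpotent a) : redF M χ a = 0 := by
  rw [← redA_liftA a, ← redC_chiL' (char_mem hχ) (liftA_mem a)]
  obtain ⟨n, ρ, rfl⟩ := hχ
  obtain ⟨m, hm⟩ := ha
  rw [chiL_character, Module.End.trace_eq_sum_roots_charpoly_of_splits (IsAlgClosed.splits _)]
  refine redC_eq_zero_of_memLocalIdeal (Multiset.sum_induction _ _ (fun _ _ => MemLocalIdeal.add')
    memLocalIdeal_zero fun l hl => ?_)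
  obtain ⟨v, hv⟩ := ((Module.End.hasEigenvalue_iff_isRoot_charpoly _ _).2
    (Polynomial.isRoot_of_mem_roots hl)).exists_hasEigenvector
  have h1 : l ∈ locRing M := by
    obtain ⟨f, f1, f2⟩ := isIntegral_of_mem_intAlg (liftA_mem a)
    refine mem_locRing_of_isIntegral_loc ⟨f, f1, ?_⟩
    have := Module.End.aeval_apply_of_hasEigenvector (p := f.map (algebraMap _ ℂ)) hv
    rw [Polynomial.aeval_algHom_apply, Polynomial.aeval_map_algebraMap, Polynomial.aeval_def, f2,
      map_zero, Polynomial.eval_map] at this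
    exact (smul_eq_zero.1 this.symm).resolve_right hv.2
  refine memLocalIdeal_iff.2 ⟨h1, by_contra fun h0 => hv.2 ?_⟩
  have h2 := smul_mem_intAlg (inv_mem_of_redC_ne_zero h0) (liftA_mem a)
  have h3 : redA M (1 - (l⁻¹ • liftA a) ^ m) = 1 := by
    rw [redA_sub (one_mem _) (pow_mem h2 _), redA_pow h2, redA_smul (inv_mem_of_redC_ne_zero h0)
      (liftA_mem a), redA_liftA, smul_pow, hm, smul_zero, sub_zero, redA_one]
  obtain ⟨u, hu⟩ := (LinearMap.injective_iff_surjective (f := LinearMap.mulLeft ℂ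
    (1 - (l⁻¹ • liftA a) ^ m))).1 ((injective_iff_map_eq_zero _).2 fun x hx =>
      eq_zero_of_mul_eq_zero_of_redA (sub_mem (one_mem _) (pow_mem h2 _)) h3 hx) 1
  have h4 := congrArg (fun x => ρ.asAlgebraHom x v) (mul_eq_one_comm.1 hu)
  simp only [map_mul, map_sub, map_one, map_pow, map_smul, Module.End.mul_apply, smul_pow,
    LinearMap.sub_apply, Module.End.one_apply, LinearMap.smul_apply, hv.pow_apply, smul_smul,
    ← mul_pow, inv_mul_cancel₀ (ne_zero_of_redC_ne_zero h0), one_pow, one_smul, sub_self,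
    map_zero] at h4
  exact h4.symm

theorem Uni.redC_unit (hM : IsPModular p M) {b : Set (IrrCharacter G)} {N : ℕ} (h : Uni p b N)
    {ψ : IrrCharacter G} (hψ : ψ ∈ b) : redC M (N * (ψ : G → ℂ) 1 / Nat.card G) ≠ 0 := by
  have hp : p.Prime := Fact.out
  have h1 := H8.height_add_bmin (p := p) hψ
  have h2 := H8.defect_add_bmin (p := p) ⟨ψ, hψ⟩
  have h3 : charDegree (ψ : G → ℂ) ≠ 0 := fun h => by
    simpa [h, Nat.card_pos.ne'] using H8.charDegree_dvd_card ψ
  rw [← H8.irr_coe_charDegree, ← Nat.cast_mul, ← h.defect]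
  refine H8.redC_natCast_div_ne_zero hM (mul_ne_zero (pow_ne_zero _ hp.ne_zero) h3)
    Nat.card_pos.ne' ?_
  rw [Nat.factorization_mul (pow_ne_zero _ hp.ne_zero) h3, Finsupp.add_apply, hp.factorization_pow,
    Finsupp.single_eq_same, ← h1, ← h2, h.height hψ, zero_add]

theorem exists_w (hM : IsPModular p M) {P : Subgroup G} {e : (Res M)[G]}
    (hab : P ≤ Subgroup.centralizer (P : Set G)) {b : Set (IrrCharacter G)} (hb : IsPBlock M b)
    (S : MaxP p ⊤ ⊤ (eB M b) P e) (hn : NilB p ⊤ ⊤ (eB M b)) : ∃ w : P → (Res M)[G],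
    (∀ a x, w a * x = x * w a) ∧ w 1 = eB M b ∧ (∀ a a', w (a * a') = w a * w a') ∧
    (∀ z : P, (z : G) ∈ Subgroup.center G → w z = single (z : G) 1 * eB M b) ∧
    ∀ ψ ∈ b, ∑ a, w a = redA M ((Nat.card P : ℂ) • fB {ψ}) := by
  classical
  haveI := charP_res hM
  obtain ⟨χ, hχ, h0⟩ := H8.exists_height_zero (p := p) (H8.block_nonempty hb)
  obtain ⟨T, hT⟩ := S.exists_equiv_of_nilB hM hb hn hχ h0
  have hc := comm_of_le_centralizer hab
  have hu := uni_of_nilB hM hab hb S hn
  have hreg : ∀ a : P, ∑ η : IrrCharacter P, (η : P → ℂ) a = if a = 1 then (Nat.card P : ℂ) else 0 :=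
    fun a => by
      split_ifs with h
      · simp [h, irr_one_of_comm hc, ← Nat.card_eq_fintype_card, card_irr_of_comm hc]
      · simpa [irr_one_of_comm hc] using sum_irr_degree_mul h
  let w : P → ℂ[G] := fun a => ∑ η : IrrCharacter P, (η : P → ℂ) a • fB {(T η).1}
  have hw1 : ∀ a, w a ∈ Subalgebra.center ℂ ℂ[G] := fun a =>
    sum_mem fun η _ => Subalgebra.smul_mem _ (fB_mem_center _) _
  have hw2 : ∀ a η, omega (T η).1 (w a) = (η : P → ℂ) a := fun a η => by
    simp [w, omega_fB, Subtype.coe_inj]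
  have hw3 : ∀ a, ∀ ψ ∉ b, omega ψ (w a) = 0 := fun a ψ hψ => by
    have : ∀ η, ψ ≠ (T η).1 := fun η h => hψ (h ▸ (T η).2)
    simp [w, omega_fB, this]
  have hext : ∀ {x y}, x ∈ Subalgebra.center ℂ ℂ[G] → y ∈ Subalgebra.center ℂ ℂ[G] →
      (∀ η, omega (T η).1 x = omega (T η).1 y) →
      (∀ ψ ∉ b, omega (ψ : G → ℂ) x = omega (ψ : G → ℂ) y) → x = y := fun hx hy h1 h2 =>
    center_ext hx hy fun ψ => by
      by_cases hψ : ψ ∈ b
      · simpa using h1 (T.symm ⟨ψ, hψ⟩)
      · exact h2 ψ hψ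
  have hw4 : ∀ a, w a ∈ intAlg M G := fun a g => by
    have h1 : ∀ u f, ∃ n : ℕ, ∑ η : IrrCharacter P, (η : P → ℂ) a * extF M p P e η u f =
        Nat.card P * n := fun u f => by
      unfold extF
      split_ifs with h
      · simp only [← irr_mul_of_comm hc, hreg]
        split_ifs
        exacts [⟨1, by simp⟩, ⟨0, by simp⟩]
      · exact ⟨0, by simp⟩
    choose n hn using h1
    have h2 : (w a).coeff g = Nat.card P * (χ : G → ℂ) 1 / Nat.card G *
        ∑ b' ∈ blocks M (Subgroup.centralizer ({pp p g⁻¹} : Set G)),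
          n (pp p g⁻¹) (eb M _ b') * chiL χ (fb _ b' * single g⁻¹ 1) := by
      simp only [w, coeff_sum', coeff_smul', coeff_fB, blockCoeff_singleton, ← H8.irr_inv,
        fun η => hu.apply_one (T η).2 hχ]
      simp only [hT, starP, H7.star, Finset.mul_sum]
      rw [Finset.sum_comm]
      refine Finset.sum_congr rfl fun b' _ => ?_
      rw [← mul_assoc, div_mul_eq_mul_div, mul_right_comm, ← hn]
      simp only [Finset.sum_mul, Finset.sum_div]
      exact Finset.sum_congr rfl fun _ _ => by ring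
    rw [h2]
    exact mul_mem (mem_of_redC_ne_zero (hu.redC_unit hM hχ)) (sum_mem fun b' hb' => mul_mem
      (natCast_mem _ _) (chiL_mem χ.2.isCharacter (mul_mem (fb_mem_intAlg (mem_blocks.1 hb'))
        (single_mem_intAlg _ (one_mem _)))))
  have hr : ∀ (η : IrrCharacter P) a, redC M ((η : P → ℂ) a) = 1 := fun η a => by
    rw [redC_gen_eq hM S.isDef.isPGroup η.2.isGen, irr_one_of_comm hc, redC_one]
  refine ⟨fun a => redA M (w a), fun a => center_comm (redA_mem_center (hw1 a)), ?_, fun a a' => ?_,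
    fun z hz => ?_, fun ψ hψ => ?_⟩
  · beta_reduce
    rw [← redA_fB, hext (hw1 1) (fB_mem_center b) (fun η => by
      rw [hw2, omega_fB_of_mem (T η).2, irr_one_of_comm hc]) fun ψ hψ => by
      rw [hw3 _ _ hψ, omega_fB_of_not_mem hψ]]
  · beta_reduce
    rw [← redA_mul (hw4 a) (hw4 a'), hext (hw1 (a * a')) (mul_mem (hw1 a) (hw1 a')) (fun η => by
      rw [omega_center_mul (T η).1.2 (hw1 a), hw2, hw2, hw2, irr_mul_of_comm hc]) fun ψ hψ => by
      rw [omega_center_mul ψ.2 (hw1 a), hw3 _ _ hψ, hw3 _ _ hψ, zero_mul]]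
  · have hz' : single (z : G) (1 : ℂ) ∈ Subalgebra.center ℂ ℂ[G] := mem_center_iff_single.2 fun h => by
      rw [single_mul_single, single_mul_single, Subgroup.mem_center_iff.1 hz h]
    have h1 : Subgroup.centralizer ({(z : G)} : Set G) = ⊤ :=
      eq_top_iff.2 fun g _ => mem_centralizer_singleton.2 (Subgroup.mem_center_iff.1 hz g).symm
    have h2 := (bsec_spec hM S.pair z.2).1
    have h3 : fb _ (bsec M p P e z) = fB b := fb_eq_fB_of_eb_eq h2 hb (Blk.eq_of_br_mul
      S.isDef.isPGroup le_top (h1 ▸ blk_eb h2) (blk_eB hb) S.blk.ne_zero (br_bsec hM hab S z.2)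
      S.br_mul)
    have h4 : ∀ ψ ∈ b, H8.sub p (z : G) (bsec M p P e z) ψ 1 = (ψ : G → ℂ) z := fun ψ hψ => by
      rw [sub_apply (S.secData hM z.2) ψ.2.isClassFunction _ (by simp [(Fact.out : p.Prime).ne_one]),
        h3, chiL_fB_mul_of_mem hψ, chiL_single, one_mul, OneMemClass.coe_one, mul_one]
    have h5 : ∀ η, omega (T η).1 (single (z : G) 1) = (η : P → ℂ) z * omega χ (single (z : G) 1) :=
      fun η => by
        have := congrFun (S.sub_starP hM (S.stable_of_nilB hM hn η.2.isClassFunction)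
          χ.2.isClassFunction z) 1
        rw [← hT, h4 _ (T η).2, Pi.smul_apply, h4 _ hχ] at this
        rw [omega_apply, omega_apply, chiL_single, chiL_single, this, hu.apply_one (T η).2 hχ,
          smul_eq_mul]
        ring
    obtain ⟨k, hk⟩ := S.isDef.isPGroup z
    have h6 : omega χ (single (z : G) 1) ^ p ^ k = 1 := by
      rw [← omega_pow χ.2 hz', single_pow, ← Subgroup.coe_pow, hk, one_pow, OneMemClass.coe_one,
        ← one_def, omega_one χ.2.apply_one_ne_zero]
    have h7 := hext (mul_mem hz' (fB_mem_center b)) (Subalgebra.smul_mem _ (hw1 z)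
      (omega χ (single (z : G) 1))) (fun η => by
        rw [omega_center_mul (T η).1.2 hz', omega_fB_of_mem (T η).2, h5, map_smul, hw2, smul_eq_mul,
          mul_one, mul_comm]) fun ψ hψ => by
        rw [omega_center_mul ψ.2 hz', omega_fB_of_not_mem hψ, map_smul, hw3 _ _ hψ, smul_zero,
          mul_zero]
    have h8 := congrArg (redA M) h7
    rw [redA_mul (single_mem_intAlg _ (one_mem _)) (fB_mem_intAlg hb), redA_single, redC_one,
      redA_fB, redA_smul (mem_locRing_of_pow_eq_one (pow_ne_zero _ (Fact.out : p.Prime).ne_zero) h6)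
      (hw4 z), redC_eq_one_of_pow_eq_one hM h6, one_smul] at h8
    exact h8.symm
  · obtain ⟨η, rfl⟩ : ∃ η, (T η).1 = ψ := ⟨T.symm ⟨ψ, hψ⟩, by simp⟩
    have h1 := hext (Subalgebra.smul_mem _ (fB_mem_center {(T η).1}) (Nat.card P : ℂ))
      (sum_mem fun a (_ : a ∈ Finset.univ) => Subalgebra.smul_mem _ (hw1 a) ((η : P → ℂ) a⁻¹))
      (fun η' => by
        have := irr_classInner η' η
        rw [classInner_def, inv_mul_eq_iff_eq_mul₀ (Nat.cast_ne_zero.2 Nat.card_pos.ne')] at this
        simp only [map_sum, map_smul, hw2, omega_fB, H8.irr_inv, smul_eq_mul, mul_comm (conj _), this,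
          Set.mem_singleton_iff, Subtype.coe_inj, T.apply_eq_iff_eq])
      fun ψ hψ => by
        simp [hw3 _ _ hψ, omega_fB_of_not_mem (B := {(T η).1}) (ψ := ψ) fun h => hψ (h ▸ (T η).2)]
    rw [h1, redA_sum _ fun a _ => smul_mem_intAlg (irr_mem η _) (hw4 a)]
    exact Finset.sum_congr rfl fun a _ => by rw [redA_smul (irr_mem η _) (hw4 a), hr, one_smul]

end Cfsg.Agent.H6
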