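import Cfsg.Agent.H6.Cyc5
import Cfsg.Agent.H5.Clifford1

/-!
# Twisted traces
-/

set_option autoImplicit false
set_option linter.unusedSectionVars false
set_option linter.style.haveILetI false
set_option warn.classDefReducibility false

namespace Cfsg.Agent.H6

open MonoidAlgebra Cfsg Cfsg.Agent.H3 Cfsg.Agent.H4 Cfsg.Agent.H7
open scoped ComplexConjugate Pointwise
attribute [local instance] H8.subFintype

theorem exists_smul_eq_end {k A V : Type*} [Field k] [IsAlgClosed k] [Ring A] [Algebra k A]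
    [AddCommGroup V] [Module k V] [Module A V] [IsScalarTower k A V] [FiniteDimensional k V]
    [IsSimpleModule A V] (g : V →ₗ[k] V) : ∃ a : A, Algebra.lsmul k k V a = g := by
  classical
  let f : Module.End (Module.End A V) V :=
    { toFun := g
      map_add' := g.map_add
      map_smul' := fun φ m => by
        obtain ⟨c, rfl⟩ := (IsSimpleModule.algebraMap_end_bijective_of_isAlgClosed k).2 φ
        exact g.map_smul c m }
  let B := Module.finBasis k V
  obtain ⟨a, ha⟩ := jacobson_density f (Finset.univ.image B)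
  exact ⟨a, B.ext fun l => (ha _ (by simp)).symm⟩

theorem exists_twisted {k A : Type*} [Field k] [IsAlgClosed k] [Ring A] [Algebra k A]
    [FiniteDimensional k A] (α : A →ₐ[k] A) (hα : Function.Surjective α) {b : A} (hb0 : b ≠ 0)
    (hi : b * b = b) (hc : ∀ x, b * x = x * b) (hαb : α b = b)
    (hU : ∀ m m' : Submodule A A, IsSimpleModule A (A ⧸ m) → IsSimpleModule A (A ⧸ m') →
      (∀ w : A ⧸ m, b • w = w) → (∀ w : A ⧸ m', b • w = w) → Nonempty ((A ⧸ m) ≃ₗ[A] (A ⧸ m'))) :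
    ∃ f : ℕ → A →ₗ[k] k, (∀ i x y, f i (x * (α ^ i) y) = f i (y * x)) ∧ (∀ i x, f i (α x) = f i x) ∧
      (∀ i x, f i (b * x) = f i x) ∧
      (∀ π, (∀ x, π * x = x * π) → IsNilpotent π → ∀ i x, f i (π * x) = 0) ∧
      ∀ i, ∃ x, f i x = 1 := by
  obtain ⟨m, hm, hbm⟩ := Ideal.exists_le_maximal (Ideal.span {1 - b}) fun h => hb0 (by
    obtain ⟨x, hx⟩ := Submodule.mem_span_singleton.1 ((Ideal.eq_top_iff_one _).1 h)
    rw [← one_mul b, ← hx, smul_eq_mul, mul_assoc, sub_mul, hi, one_mul, sub_self, mul_zero])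
  haveI hs : IsSimpleModule A (A ⧸ m) := isSimpleModule_iff_isCoatom.2 hm.out
  have hb : ∀ w : A ⧸ m, b • w = w := fun w => by
    obtain ⟨x, rfl⟩ := Submodule.Quotient.mk_surjective m w
    rw [← Submodule.Quotient.mk_smul, eq_comm, Submodule.Quotient.eq, smul_eq_mul, hc,
      ← mul_one_sub]
    exact m.smul_mem x (hbm (Ideal.subset_span rfl))
  haveI : RingHomSurjective (α : A →+* A) := ⟨hα⟩
  let l := (α : A →+* A).toSemilinearMap
  let L := (Submodule.comap l m).mapQ m l le_rfl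
  have hL : Function.Bijective L := ⟨LinearMap.ker_eq_bot.1 (by
    rw [Submodule.ker_mapQ, Submodule.mkQ_map_self]), fun w => by
      obtain ⟨x, rfl⟩ := Submodule.Quotient.mk_surjective m w
      obtain ⟨x, rfl⟩ := hα x
      exact ⟨Submodule.Quotient.mk x, rfl⟩⟩
  obtain ⟨φ⟩ := hU m _ hs ((LinearMap.isSimpleModule_iff_of_bijective L hL).2 hs) hb fun w =>
    hL.1 (by rw [map_smulₛₗ]; exact (congrArg (· • L w) hαb).trans (hb _))
  have h1 : ∀ (x : A) v, L (φ (x • v)) = α x • L (φ v) := fun x v => by rw [map_smul, map_smulₛₗ]; rfl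
  let s₀ : (A ⧸ m) →ₗ[k] (A ⧸ m) :=
    { toFun := fun v => L (φ v)
      map_add' := fun v w => by rw [map_add, map_add]
      map_smul' := fun c v => by
        rw [← algebraMap_smul A c v, h1, AlgHom.commutes, algebraMap_smul]; rfl }
  haveI : FiniteDimensional k (A ⧸ m) :=
    Module.Finite.of_surjective (m.mkQ.restrictScalars k) m.mkQ_surjective
  obtain ⟨s, hs'⟩ := (Module.End.isUnit_iff s₀).2 (hL.comp φ.bijective)
  let ρ := Algebra.lsmul k k (A ⧸ m) (A := A)
  have h2 : ∀ x, s₀ * ρ x = ρ (α x) * s₀ := fun x => LinearMap.ext (h1 x)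
  have h3 : ∀ i x, s₀ ^ i * ρ x = ρ ((α ^ i) x) * s₀ ^ i := fun i x => by
    induction i with
    | zero => simp
    | succ i ih => rw [pow_succ', mul_assoc, ih, ← mul_assoc, h2, pow_succ', mul_assoc]; rfl
  refine ⟨fun i => LinearMap.trace k _ ∘ₗ LinearMap.mulRight k (s₀ ^ i) ∘ₗ ρ.toLinearMap,
    fun i x y => ?_, fun i x => ?_, fun i x => ?_, fun π h4 h5 i x => ?_, fun i => ?_⟩ <;>
    simp only [LinearMap.comp_apply, AlgHom.toLinearMap_apply, LinearMap.mulRight_apply, map_mul]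
  · rw [mul_assoc, ← h3, ← mul_assoc, LinearMap.trace_mul_comm, mul_assoc]
  · have : ρ (α x) * s₀ ^ i = s₀ * (ρ x * s₀ ^ i * s⁻¹) := by
      rw [← mul_assoc, ← mul_assoc, h2, mul_assoc _ s₀, ← pow_succ', pow_succ, ← hs', mul_assoc,
        mul_assoc, Units.mul_inv, mul_one]
    rw [this, LinearMap.trace_mul_comm, mul_assoc, ← hs', Units.inv_mul, mul_one]
  · rw [show ρ b = 1 from LinearMap.ext hb, one_mul]
  · rcases (Ser.cmul π h4 (A ⧸ m)).injective_or_eq_zero with h6 | h6
    · obtain ⟨n, hn⟩ := h5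
      haveI := IsSimpleModule.nontrivial A (A ⧸ m)
      exact absurd (Function.Injective.iterate (f := ρ π) h6 n) (by
        rw [← Module.End.coe_pow, ← map_pow, hn, map_zero]
        exact Function.not_injective_const)
    · rw [show ρ π = 0 from LinearMap.ext fun v => LinearMap.congr_fun h6 v, zero_mul, zero_mul, map_zero]
  · haveI := IsSimpleModule.nontrivial A (A ⧸ m)
    obtain ⟨v, hv⟩ := exists_ne (0 : A ⧸ m)
    obtain ⟨μ, hμ⟩ := Module.Projective.exists_dual_eq_one k hv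
    obtain ⟨x, hx⟩ := exists_smul_eq_end (A := A) (LinearMap.smulRight μ v * (s ^ i)⁻¹.val)
    exact ⟨x, by rw [hx, ← hs', ← Units.val_pow_eq_pow_val, Units.inv_mul_cancel_right,
      LinearMap.trace_smulRight, hμ]⟩

theorem sub_one_pow_pred {k A : Type*} [Field k] [Ring A] [Algebra k A] {p : ℕ} [hp : Fact p.Prime]
    [CharP k p] (x : A) (n : ℕ) : (x - 1) ^ (p ^ n - 1) = ∑ i ∈ Finset.range (p ^ n), x ^ i := by
  have h : (Polynomial.X - 1 : Polynomial k) ^ (p ^ n - 1) =
      ∑ i ∈ Finset.range (p ^ n), Polynomial.X ^ i :=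
    mul_right_cancel₀ (Polynomial.X_sub_C_ne_zero 1) (by
      rw [Polynomial.C_1, geom_sum_mul, ← pow_succ, Nat.sub_add_cancel (Nat.one_le_pow _ _ hp.out.pos),
        sub_pow_char_pow, one_pow])
  simpa using congrArg (Polynomial.aeval x) h

theorem sum_range_pow_eq {P A : Type*} [Group P] [Fintype P] [AddCommMonoid A] {u : P}
    (hu : ∀ a, a ∈ Subgroup.zpowers u) (F : P → A) :
    ∑ i ∈ Finset.range (Nat.card P), F (u ^ i) = ∑ a, F a := by
  classical
  rw [← IsCyclic.image_range_card hu, Finset.sum_image]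
  rw [← orderOf_eq_card_of_forall_mem_zpowers hu, Finset.coe_range]
  exact pow_injOn_Iio_orderOf

theorem ker_le_range {k V : Type*} [Field k] [AddCommGroup V] [Module k V] [FiniteDimensional k V]
    (φ ψ : V →ₗ[k] V) (h1 : ∀ v, ψ (φ v) = 0) (h2 : ∀ v, φ v = 0 → ∃ w, ψ w = v) (v : V)
    (hv : ψ v = 0) : ∃ w, φ w = v := by
  have h3 : LinearMap.range φ = LinearMap.ker ψ := Submodule.eq_of_le_of_finrank_le
    (by rintro _ ⟨v, rfl⟩; exact h1 v) (by
      have := Submodule.finrank_mono (show LinearMap.ker φ ≤ LinearMap.range ψ from h2)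
      have := φ.finrank_range_add_finrank_ker
      have := ψ.finrank_range_add_finrank_ker
      omega)
  exact (h3.ge hv : v ∈ LinearMap.range φ)

theorem kerL_aux {R : Type*} [Ring R] {b π : R} {q r : ℕ} (hr : 0 < r) (hq : 2 * r ≤ q)
    (hb : b * b = b) (hc : ∀ a, b * a = a * b) (hπ : b * π = π)
    (h : ∀ a, π ^ (q - r) * a = 0 → ∃ c, b * a = π ^ r * c) (a : R) (ha : π ^ (q - 1) * a = 0) :
    ∃ c, b * a = π * c := by
  obtain ⟨r, rfl⟩ := Nat.exists_eq_add_one.2 hr
  obtain ⟨c, h1⟩ := h (π ^ r * a) (by rw [← mul_assoc, ← pow_add, ← ha]; congr 2; omega)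
  obtain ⟨d, h2⟩ := h (b * a - π * c) (by
    obtain ⟨s, hs⟩ : ∃ s, q - (r + 1) = s + r := ⟨q - (r + 1) - r, by omega⟩
    rw [hs, pow_add, mul_assoc, mul_sub, ← mul_assoc _ π, ← pow_succ, ← h1, ← mul_assoc _ b, ← hc,
      mul_assoc b, sub_self, mul_zero])
  rw [mul_sub, ← mul_assoc, hb, ← mul_assoc, hπ, sub_eq_iff_eq_add, pow_succ', mul_assoc,
    ← mul_add] at h2
  exact ⟨_, h2⟩

section grp
variable {k G : Type*} [Field k] [Group G] [Fintype G] {p : ℕ} [hp : Fact p.Prime] [CharP k p]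

omit hp [CharP k p] in
theorem exists_sum_act {Q : Type*} [Group Q] [Fintype Q] (act : Q → G → G) (h1 : ∀ x, act 1 x = x)
    (hm : ∀ q q' x, act (q * q') x = act q (act q' x)) (hf : ∀ x q, act q x = x → q = 1)
    {T : Subgroup G} (y : RT k T) (hy : ∀ u g, (y : k[G]).coeff (act u g) = (y : k[G]).coeff g) :
    ∃ y' : RT k T, ∀ g, ∑ u, (y' : k[G]).coeff (act u g) = (y : k[G]).coeff g := by
  obtain ⟨d, hd⟩ := exists_wt_free act h1 hm
  refine ⟨⟨ofFun fun g => d g * (y : k[G]).coeff g, mem_RT.2 fun g hg => ?_⟩, fun g => ?_⟩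
  · rw [coeff_ofFun, mem_RT.1 y.2 g hg, mul_zero]
  · simp only [coeff_ofFun, hy, ← Finset.sum_mul, ← Nat.cast_sum, hd g (hf g), Nat.cast_one, one_mul]

theorem ser_of {T : Subgroup G} {b π : RT k T} {z : T} (hz : orderOf z = p) {n : ℕ}
    (hi : b * b = b) (hc : ∀ a, b * a = a * b) (hπ : b * π = π)
    (hr : π ^ p ^ n = (sg k T z - 1) * b)
    (hN : ∀ a, π ^ (p ^ (n + 1) - 1) * a = a * π ^ (p ^ (n + 1) - 1))
    (hJ : ∀ a, IsNilpotent a → sform k T (π ^ (p ^ (n + 1) - 1) * a) = 0) :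
    Ser k (p ^ (n + 1)) b π (sform k T) := by
  classical
  have h2 := hp.out.two_le
  have hq : 2 * p ^ n ≤ p ^ (n + 1) := by rw [pow_succ']; gcongr
  have hpos : 0 < p ^ n := Nat.pow_pos hp.out.pos
  have hbp : ∀ m, b ^ (m + 1) = b := fun m => IsIdempotentElem.pow_succ_eq m hi
  have h0 := sub_one_pow_pred (k := k) (p := p) (sg k T z) 1
  rw [pow_one] at h0
  have h3 : (sg k T z - 1) ^ (p - 1) = ∑ u : Subgroup.zpowers z, sg k T u := by
    rw [h0, ← sum_range_pow_eq (u := ⟨z, Subgroup.mem_zpowers z⟩) (by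
      rintro ⟨_, i, rfl⟩; exact ⟨i, rfl⟩), Nat.card_zpowers, hz]
    simp
  have h4 : (sg k T z - 1) ^ (p - 1) * (sg k T z - 1) = 0 := by
    rw [h0, geom_sum_mul, ← map_pow, ← hz, pow_orderOf_eq_one, map_one, sub_self]
  have h5 : π ^ (p ^ (n + 1) - p ^ n) = (sg k T z - 1) ^ (p - 1) * b := by
    rw [show p ^ (n + 1) - p ^ n = p ^ n * (p - 1) by rw [Nat.mul_sub_one, pow_succ], pow_mul, hr,
      Commute.mul_pow (hc _).symm, show p - 1 = p - 2 + 1 by omega, hbp]
  have h6 : ∀ {Q : RT k T → Prop}, Q 1 → (∀ x, Q x → Q (x * sg k T z)) →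
      ∀ u : Subgroup.zpowers z, Q (sg k T u) := fun h1 h2 u => by
    obtain ⟨i, hi⟩ := mem_powers_iff_mem_zpowers.2 u.2
    rw [← hi, map_pow]
    clear hi
    induction i with
    | zero => rwa [pow_zero]
    | succ i ih => exact pow_succ (sg k T z) i ▸ h2 _ ih
  have hL := ker_le_range (LinearMap.mulLeft k (sg k T z - 1))
    (LinearMap.mulLeft k ((sg k T z - 1) ^ (p - 1))) (fun v => by simp [← mul_assoc, h4])
    fun v hv => by
      have h7 := h6 (Q := fun x => x * v = v) (one_mul v) fun x hx => by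
        rw [mul_assoc, sub_eq_zero.1 ((sub_one_mul _ _).symm.trans hv), hx]
      obtain ⟨w, hw⟩ := exists_sum_act (fun (u : Subgroup.zpowers z) g => ((u : T) : G) * g)
        (by simp) (by simp [mul_assoc]) (by simp) v fun u g => by
          conv_lhs => rw [← h7 u]
          simp [coe_sg, coeff_single_mul_apply]
      refine ⟨w, Subtype.ext (alg_ext fun g => ?_)⟩
      rw [← hw, LinearMap.mulLeft_apply, h3, ← Equiv.sum_comp (Equiv.inv _)]
      simp [coe_sg, Finset.sum_mul, coeff_sum', coeff_single_mul_apply]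
  have hR := ker_le_range (LinearMap.mulRight k (sg k T z - 1))
    (LinearMap.mulRight k ((sg k T z - 1) ^ (p - 1))) (fun v => by
      simp [mul_assoc, ← pow_succ', pow_succ, h4])
    fun v hv => by
      have h7 := h6 (Q := fun x => v * x = v) (mul_one v) fun x hx => by
        rw [← mul_assoc, hx, sub_eq_zero.1 ((mul_sub_one _ _).symm.trans hv)]
      obtain ⟨w, hw⟩ := exists_sum_act (fun (u : Subgroup.zpowers z) g => g * ((u : T) : G)⁻¹)
        (by simp) (by simp [mul_assoc]) (by simp) v fun u g => by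
          conv_rhs => rw [← h7 u]
          simp [coe_sg, coeff_mul_single_apply]
      refine ⟨w, Subtype.ext (alg_ext fun g => ?_)⟩
      rw [← hw, LinearMap.mulRight_apply, h3]
      simp [coe_sg, Finset.mul_sum, coeff_sum', coeff_mul_single_apply]
  simp only [LinearMap.mulLeft_apply, LinearMap.mulRight_apply] at hL hR
  haveI := IsArtinianRing.of_finite k (RT k T)
  refine ⟨h2.trans (Nat.le_self_pow n.succ_ne_zero p), hi, hc, hπ, ?_, hN,
    kerL_aux hpos hq hi hc hπ fun a ha => ?_, fun a ha => ?_, fun a ha => sform_nd _ fun x => ?_,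
    sform_nd⟩
  · rw [← Nat.sub_add_cancel (le_of_add_le_left ((two_mul _).ge.trans hq)), pow_add, h5, hr,
      mul_assoc, ← mul_assoc b, hc, mul_assoc, ← mul_assoc, h4, zero_mul]
  · obtain ⟨c, h7⟩ := hL (b * a) (by rw [← mul_assoc, ← h5, ha])
    exact ⟨c, by rw [hr, ← hc, mul_assoc, h7, ← mul_assoc, hi]⟩
  · obtain ⟨c, h7⟩ := kerL_aux (b := MulOpposite.op b) (π := MulOpposite.op π) hpos hq
      (congrArg _ hi) (fun a => MulOpposite.unop_injective (hc _).symm)
      (congrArg _ ((hc π).symm.trans hπ)) (fun a ha => by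
        obtain ⟨c, h7⟩ := hR (b * a.unop) (by
          rw [hc, mul_assoc, hc, ← h5]; exact congrArg MulOpposite.unop ha)
        refine ⟨MulOpposite.op c, MulOpposite.unop_injective ?_⟩
        simp only [MulOpposite.unop_mul, MulOpposite.unop_op, MulOpposite.unop_pow]
        rw [hr, ← mul_assoc, h7, hc, mul_assoc, hi]) (MulOpposite.op a)
      (congrArg MulOpposite.op ((hN a).symm.trans ha))
    exact ⟨c.unop, (hc a).trans (congrArg MulOpposite.unop h7)⟩
  · obtain ⟨m, hm⟩ := IsSemiprimaryRing.isNilpotent (R := RT k T)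
    rw [← mul_assoc, ← hN, mul_assoc]
    exact hJ _ ⟨m, by simpa [hm] using Ideal.pow_mem_pow (Ideal.mul_mem_left _ x ha) m⟩

omit hp [CharP k p] in
theorem sum_ite_conj (H : Subgroup G) (r h : G) [DecidableEq G] [Decidable (h ∈ H7.orb H r)] :
    ∑ t : H, (if t * r * (t : G)⁻¹ = h then 1 else 0) =
      if h ∈ H7.orb H r then Nat.card (Subgroup.centralizer {r} ⊓ H : Subgroup G) else 0 := by
  split_ifs with hh
  · obtain ⟨s, hs, rfl⟩ := hh
    rw [← Finset.card_filter, ← Nat.card_eq_finsetCard]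
    refine Nat.card_congr ⟨fun t => ⟨s⁻¹ * t.1, Subgroup.mem_centralizer_singleton_iff.2 ?_,
      H.mul_mem (inv_mem hs) t.1.2⟩, fun t => ⟨⟨s * t, mul_mem hs t.2.2⟩, ?_⟩, fun t => by simp,
      fun t => by simp⟩
    · rw [mul_assoc, mul_inv_eq_iff_eq_mul.1 (Finset.mem_filter.1 t.2).2]
      group
    · have := Subgroup.mem_centralizer_singleton_iff.1 t.2.1
      simp only [Finset.mem_filter, Finset.mem_univ, true_and, mul_assoc s, this]
      group
  · exact Finset.sum_eq_zero fun t _ => if_neg fun e => hh ⟨t, t.2, e⟩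

theorem exists_tr_of_isDef {P T : Subgroup G} {b : k[G]} (hb : b ∈ Fix k T T) (hD : IsDef p T b P)
    {c : G → ℕ} (hc : ∀ g, ∑ u : P, c (g * u) = 1) :
    ∃ x ∈ Fix k T P, b = ∑ t : T, (c t : k) • cj (t : G) x := by
  classical
  let F : k[G] →ₗ[k] k[G] := ∑ t : T, (c t : k) • (cj (t : G)).toLinearMap
  suffices h : b ∈ (Subalgebra.toSubmodule (Fix k T P)).map F by
    obtain ⟨x, hx, rfl⟩ := h
    exact ⟨x, hx, by simp [F]⟩
  rw [hb.2.eq_sum_ind]
  refine sum_mem fun g _ => ?_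
  by_cases hg : b.coeff g = 0
  · simp [hg]
  obtain ⟨R, hR⟩ := exists_sylowIn p (Subgroup.centralizer {g} ⊓ T)
  obtain ⟨s, hs, hsR⟩ := hD.conj_le R (hR.le.trans inf_le_right) hR.isPGroup (br_ne_zero_iff.2
    ⟨g, fun x hx => Subgroup.mem_centralizer_singleton_iff.1 (hR.le hx).1, hg⟩)
  have hR' := hR.conj s
  rw [Subgroup.smul_inf, ← centralizer_singleton_conj, Subgroup.conj_smul_eq_self_of_mem hs] at hR'
  rw [← H7.orb_eq_of_mem (show s * g * s⁻¹ ∈ H7.orb T g from ⟨s, hs, rfl⟩)]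
  have hr : s * g * s⁻¹ ∈ T := mul_mem (mul_mem hs (hb.1.mem hg)) (inv_mem hs)
  generalize s * g * s⁻¹ = r at hR' hr
  have hle : Subgroup.centralizer {r} ⊓ P ≤ Subgroup.centralizer {r} ⊓ T := inf_le_inf_left _ hD.le
  have h1 : ((Subgroup.centralizer {r} ⊓ P).relIndex (Subgroup.centralizer {r} ⊓ T) : k) ≠ 0 :=
    fun h => hR'.not_dvd (((CharP.cast_eq_zero_iff k p _).1 h).trans
      (Subgroup.relIndex_dvd_of_le_left _ (le_inf (hR'.le.trans inf_le_left) hsR)))
  refine Submodule.smul_mem _ _ ((Submodule.smul_mem_iff _ h1).1 ⟨ind k (H7.orb P r),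
    ind_orb_mem_Fix (hD.le.trans Subgroup.le_normalizer) hr, alg_ext fun h => ?_⟩)
  have h2 : (∑ t : T, c t * if (t : G)⁻¹ * h * t ∈ H7.orb P r then 1 else 0) *
      Nat.card (Subgroup.centralizer {r} ⊓ P : Subgroup G) = if h ∈ H7.orb T r then
        Nat.card (Subgroup.centralizer {r} ⊓ T : Subgroup G) else 0 := by
    simp only [Finset.sum_mul, mul_assoc (c _), ite_mul, one_mul, zero_mul, ← sum_ite_conj,
      Finset.mul_sum]
    rw [Finset.sum_comm, Finset.sum_congr rfl fun u _ => (Equiv.sum_comp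
      (Equiv.mulRight (Subgroup.inclusion hD.le u)⁻¹) _).symm, Finset.sum_comm]
    refine Finset.sum_congr rfl fun t _ => ?_
    have : ∀ u : P, u * r * (u : G)⁻¹ = (t * (u : G)⁻¹)⁻¹ * h * (t * (u : G)⁻¹) ↔
        t * r * (t : G)⁻¹ = h := fun u => ⟨fun e => by
      rw [← mul_left_inj (t * (u : G)⁻¹), ← mul_right_inj (t * (u : G)⁻¹)⁻¹, ← mul_assoc _ h, ← e]
      group, fun e => by rw [← e]; group⟩
    simp only [Equiv.coe_mulRight, Subgroup.coe_mul, Subgroup.coe_inv, Subgroup.coe_inclusion, this,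
      ← Finset.sum_mul]
    rw [← Equiv.sum_comp (Equiv.inv _)]
    simp [hc]
  rw [card_eq_card_mul_relIndex hle, mul_comm, ← mul_ite_zero,
    mul_right_inj' Nat.card_pos.ne'] at h2
  have h3 := congrArg (Nat.cast : ℕ → k) h2
  simpa [F, coeff_sum', coeff_cj, coeff_ind] using h3

omit hp [CharP k p] in
theorem exists_gen_quot {C T : Subgroup G} [(C.subgroupOf T).Normal]
    (h : IsCyclic (T ⧸ C.subgroupOf T)) : ∃ t ∈ T, (∀ g ∈ T, ∃ j : ℕ, (t ^ j)⁻¹ * g ∈ C) ∧
      ∀ i < C.relIndex T, ∀ j < C.relIndex T, t ^ j * (t ^ i)⁻¹ ∈ C → i = j := by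
  obtain ⟨t, ht⟩ := h.exists_generator
  obtain ⟨t, rfl⟩ := QuotientGroup.mk_surjective t
  refine ⟨t, t.2, fun g hg => ?_, fun i hi j hj e => ?_⟩
  · obtain ⟨j, hj⟩ := mem_powers_iff_mem_zpowers.2 (ht (⟨g, hg⟩ : T))
    exact ⟨j, QuotientGroup.eq (a := t ^ j) (b := ⟨g, hg⟩) |>.1 hj⟩
  · refine pow_injOn_Iio_orderOf (x := (t : T ⧸ C.subgroupOf T))
      (orderOf_eq_card_of_forall_mem_zpowers ht ▸ hi) (orderOf_eq_card_of_forall_mem_zpowers ht ▸ hj)
      (QuotientGroup.eq (a := t ^ i) (b := t ^ j) |>.2 ?_)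
    rw [((Commute.refl t).pow_pow i j).inv_left.eq]
    exact e

omit hp [CharP k p] in
theorem exists_traces [IsAlgClosed k] {C T : Subgroup G} (hCT : C ≤ T) {t : G} (ht : t ∈ T)
    (hn : MulAut.conj t • C = C) (hT : ∀ g ∈ T, ∃ j : ℕ, ∃ c ∈ C, g = t ^ j * c) {e : ℕ}
    (he : ∀ i < e, ∀ j < e, t ^ j * (t ^ i)⁻¹ ∈ C → i = j) {b : k[C]} (hb0 : b ≠ 0)
    (hi : b * b = b) (hc : ∀ x, b * x = x * b)
    (htb : cj t (push k C.subtype b) = push k C.subtype b)
    (hU : ∀ m m' : Submodule k[C] k[C], IsSimpleModule k[C] (k[C] ⧸ m) →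
      IsSimpleModule k[C] (k[C] ⧸ m') → (∀ w : k[C] ⧸ m, b • w = w) →
      (∀ w : k[C] ⧸ m', b • w = w) → Nonempty ((k[C] ⧸ m) ≃ₗ[k[C]] (k[C] ⧸ m'))) :
    ∃ τ : Fin e → RT k T →ₗ[k] k, LinearIndependent k τ ∧ (∀ i x y, τ i (x * y) = τ i (y * x)) ∧
      ∀ π : k[C], (∀ x, π * x = x * π) → IsNilpotent π → ∀ i (a c : RT k T),
        push k C.subtype b * a = push k C.subtype π * c → τ i a = 0 := by
  classical
  have hφ := push_injective (k := k) C.subtype_injective
  let α := push k (conjIso hn).toMonoidHom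
  have h1 : ∀ x, push k C.subtype (α x) = cj t (push k C.subtype x) := push_conjIso hn
  have h2 : ∀ i x, push k C.subtype ((α ^ i) x) = cj (t ^ i) (push k C.subtype x) := fun i x => by
    induction i with
    | zero => simp
    | succ i ih => rw [pow_succ', AlgHom.mul_apply, h1, ih, cj_cj, pow_succ']
  obtain ⟨f, f1, f2, f3, f4, f5⟩ := exists_twisted α (LinearMap.injective_iff_surjective
    (f := α.toLinearMap) |>.1 (push_injective (conjIso hn).injective)) hb0 hi hc
    (hφ ((h1 b).trans htb)) hU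
  let σ : ℕ → k[G] →ₗ[k] k := fun i =>
    f i ∘ₗ pull k C.subtype ∘ₗ LinearMap.mulRight k (single (t ^ i)⁻¹ 1)
  have hσ : ∀ i a, σ i a = f i (pull k C.subtype (a * single (t ^ i)⁻¹ 1)) := fun _ _ => rfl
  have h3 : ∀ x a, pull k C.subtype (push k C.subtype x * a) = x * pull k C.subtype a :=
    fun x a => by rw [← trunc_eq_pull, ← incl_eq_push, trunc_incl_mul]
  have h4 : ∀ x a, pull k C.subtype (a * push k C.subtype x) = pull k C.subtype a * x :=
    fun x a => by rw [← trunc_eq_pull, ← incl_eq_push, trunc_mul_incl]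
  have h5 : ∀ i j a, σ i (single (t ^ j) 1 * a) = σ i (a * single (t ^ j) 1) := fun i j => by
    induction j with
    | zero => simp [← one_def]
    | succ j ih =>
      have : ∀ a, σ i (single t 1 * a) = σ i (a * single t 1) := fun a => by
        rw [hσ, hσ, ← f2 i (pull _ _ (a * _ * _))]
        congr 1
        apply hφ
        rw [h1, push_pull_subtype, push_pull_subtype, cj_trunc, hn, cj_eq_conj]
        simp only [mul_assoc, single_mul_single]
        congr 4
        group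
      intro a
      rw [pow_succ, ← one_mul (1 : k), ← single_mul_single, mul_assoc, ih, mul_assoc, this, mul_assoc]
  refine ⟨fun i => σ i ∘ₗ (RT k T).val.toLinearMap, ?_, fun i x y => ?_, fun π p1 p2 i a c h => ?_⟩
  · choose x hx using f5
    refine LinearIndependent.of_pairwise_dual_eq_zero_one _ (fun j : Fin e => Module.Dual.eval k _
      (⟨push k C.subtype (x j) * single (t ^ (j : ℕ)) 1, mem_RT.2 (((supp_push_subtype C _).mono
        hCT).mul (supp_single (pow_mem ht _) _))⟩ : RT k T)) (fun j i hij => ?_) fun i => ?_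
    · change σ i (_ * _) = 0
      rw [hσ, mul_assoc, h3, single_mul_single, show pull k C.subtype (single _ _) = 0 from
        alg_ext fun c => ?_, mul_zero, map_zero]
      rw [coeff_pull, coeff_single', if_neg fun h => hij (Fin.ext (he _ i.2 _ j.2 (by rw [h]; exact c.2)).symm)]
      rfl
    · change σ i (_ * _) = 1
      rw [hσ, mul_assoc, single_mul_single, mul_inv_cancel, mul_one, ← one_def, mul_one,
        pull_push C.subtype_injective, hx]
  · have h6 : ∀ g ∈ T, ∀ a, σ i (single g 1 * a) = σ i (a * single g 1) := fun g hg a => by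
      obtain ⟨j, c, hc, rfl⟩ := hT g hg
      have : ∀ a, σ i (single c 1 * a) = σ i (a * single c 1) := fun a => by
        have h7 : single c (1 : k) = push k C.subtype (single ⟨c, hc⟩ 1) := (push_single C.subtype ⟨c, hc⟩ 1).symm
        rw [hσ, hσ, mul_assoc, h7, h3, ← f1, ← h4, h2, cj_eq_conj, ← h7]
        simp [mul_assoc, single_mul_single]
      rw [← one_mul (1 : k), ← single_mul_single, mul_assoc, h5, mul_assoc, this, mul_assoc]
    rw [RT_eq_sum x]
    simp [Finset.sum_mul, Finset.mul_sum, coe_sg, h6]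
  · change σ i a = 0
    rw [hσ, ← f3, ← h3, ← mul_assoc, h, mul_assoc, h3, f4 π p1 p2]

end grp

end Cfsg.Agent.H6
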