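import Cfsg.Agent.H6.Cyc6
import Cfsg.Agent.H6.Fr8

/-!
# Blocks with cyclic defect groups: the number of Brauer characters
-/

set_option autoImplicit false
set_option linter.unusedSectionVars false
set_option linter.style.haveILetI false
set_option warn.classDefReducibility false

namespace Cfsg.Agent.H6

open MonoidAlgebra Cfsg Cfsg.Agent.H3 Cfsg.Agent.H4 Cfsg.Agent.H7
open scoped ComplexConjugate Pointwise
attribute [local instance] H8.subFintype

variable {M : Ideal AlgInt} [hMm : M.IsMaximal] {G : Type*} [Group G] [Fintype G] {p : ℕ}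
  [hp : Fact p.Prime] (hM : IsPModular p M)
include hM

theorem Uni.redC_eq {b : Set (IrrCharacter G)} {N : ℕ} (h : Uni p b N) {ψ ψ' : IrrCharacter G}
    (hψ : ψ ∈ b) (hψ' : ψ' ∈ b) (g : G) : redC M ((ψ : G → ℂ) g) = redC M ((ψ' : G → ℂ) g) := by
  obtain ⟨x, y, rfl, hc, ⟨n, hx⟩, hy⟩ := exists_isPPart hp.out g
  have h1 := congrFun (h.eq ψ hψ ψ' hψ') y
  have h2 : x ^ p ^ n = 1 := by rw [← hx, pow_orderOf_eq_one]
  rw [pRegularPart_of_not_dvd _ hy, pRegularPart_of_not_dvd _ hy] at h1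
  rw [H8.redC_char_mul hM ψ.2.isCharacter hc h2, H8.redC_char_mul hM ψ'.2.isCharacter hc h2, h1]

theorem sum_coeff_mul_eq_zero {C T : Subgroup G} (hCT : C ≤ T)
    (hn : ∀ t ∈ T, ∀ n ∈ C, t * n * t⁻¹ ∈ C) (hi : ¬ p ∣ C.relIndex T) {θ : C → ℂ}
    (hθ : IsCharacter C θ)
    (h : ∀ t (ht : t ∈ T) (c : C), redC M (θ ⟨t * c * t⁻¹, hn t ht c c.2⟩) = redC M (θ c))
    {a : (Res M)[G]} (ha : Supp (T : Set G) a) (h0 : IsNilpotent a) :
    ∑ c : C, a.coeff c * redC M (θ c) = 0 := by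
  classical
  let E := H5.NEmb.ofLe hCT hn
  have h1 := redF_eq_zero_of_isNilpotent (M := M) (H5.isCharacter_indHom E.f hθ)
    (a := pull _ T.subtype a) ((isNilpotent_push_iff T.subtype_injective).1
      (by rwa [push_pull_subtype, ha.trunc_eq]))
  have h2 : ∀ c, redC M (H5.indHom E.f θ (E.f c)) = C.relIndex T * redC M (θ c) := fun c => by
    have h3 := E.sum_cj θ fun φ => φ c
    have h4 := E.range_le_inertia hθ.isClassFunction
    have h5 : ∀ φ ∈ E.orbit θ, φ c ∈ locRing M ∧ redC M (φ c) = redC M (θ c) := fun φ hφ => by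
      obtain ⟨g, rfl⟩ := E.mem_orbit.1 hφ
      exact ⟨char_mem hθ _, h g g.2 c⟩
    rw [E.indHom_apply_f, show ∑ g, θ (E.act g c) = _ from h3, card_eq_card_mul_relIndex h4,
      ← Nat.card_congr (MonoidHom.ofInjective E.inj).toEquiv, nsmul_eq_mul, Nat.cast_mul, mul_assoc,
      inv_mul_cancel_left₀ (Nat.cast_ne_zero.2 Nat.card_pos.ne'), redC_mul (natCast_mem _ _)
        (sum_mem fun φ hφ => (h5 φ hφ).1), redC_natCast, redC_sum _ fun φ hφ => (h5 φ hφ).1,
      Finset.sum_congr rfl fun φ hφ => (h5 φ hφ).2, Finset.sum_const, E.card_orbit, nsmul_eq_mul,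
      ← mul_assoc, ← Nat.cast_mul, Subgroup.relIndex_mul_index h4, H5.NEmb.ofLe_range]
    rfl
  rw [redF, LinearMap.sum_apply, ← Fintype.sum_of_injective E.f E.inj
    (fun c => (C.relIndex T : Res M) * (a.coeff c * redC M (θ c))) _
    (fun t ht => by rw [E.indHom_eq_zero θ ht, redC_zero, zero_smul, LinearMap.zero_apply])
    (fun c => by rw [h2, LinearMap.smul_apply, lcoeff_apply, coeff_pull, smul_eq_mul]
                 exact (mul_right_comm _ _ _).trans (mul_assoc _ _ _) |>.symm),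
    ← Finset.mul_sum] at h1
  exact (mul_eq_zero.1 h1).resolve_left fun e => hi ((natCast_res_eq_zero_iff hM _).1 e)

variable {P : Subgroup G} {e : (Res M)[G]} {B : Set (IrrCharacter G)}
  (S : MaxP p ⊤ ⊤ (eB M B) P e) (hcyc : IsCyclic P)
include S hcyc

theorem free_of_isCyclic : ∀ g ∈ NS ⊤ P e, ∀ x ∈ P, x ≠ 1 → g * x * g⁻¹ = x →
    g ∈ Subgroup.centralizer (P : Set G) := by
  haveI := charP_res hM
  exact fun g hg x hx h1 h => mem_centralizer_of_isCyclic S.isDef.isPGroup hcyc inf_le_left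
    (S.not_dvd_of_abelian (le_centralizer_of_isCyclic hcyc)) hg hx h1 h

theorem le_rank_of_isCyclic (hB : IsPBlock M B) (h1 : P ≠ ⊥) :
    (Subgroup.centralizer (P : Set G)).relIndex (NS ⊤ P e) ≤ blockRank p B := by
  classical
  haveI := charP_res hM
  have hab := le_centralizer_of_isCyclic hcyc
  have hfree := free_of_isCyclic hM S hcyc
  have hP := S.isDef.isPGroup
  obtain ⟨z, hz, hzp⟩ := exists_orderOf_eq_prime hP h1
  have hz1 : z ≠ 1 := by rintro rfl; exact hp.out.one_lt.ne (orderOf_one.symm.trans hzp)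
  have hZ : ∀ u ∈ P, u ≠ 1 → z ∈ Subgroup.zpowers u := fun u hu hu1 => by
    obtain ⟨y, hy, hyp⟩ := exists_orderOf_eq_prime (hP.to_le (Subgroup.zpowers_le.2 hu))
      (by simpa using hu1)
    exact Subgroup.zpowers_le.2 hy
      (mem_zpowers_of_isCyclic hcyc (Subgroup.zpowers_le.2 hu hy) hyp hz hzp)
  obtain ⟨hb, hle⟩ := bsec_spec hM S.pair hz
  have hu := uni_bsec' hM S hab hfree hz hz1
  have hC := CK_top_zpowers z
  have hC' := (CK_top _).symm.trans hC
  have S₁ := S.local_up hab hz (by rw [hC]; exact blk_eb hb) (br_bsec hM hab S hz)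
  have h2 : NS (CK ⊤ (Subgroup.zpowers z)) P e ≤ Subgroup.centralizer (P : Set G) := fun g hg =>
    hfree g ⟨hg.1, trivial, hg.2.2⟩ z hz hz1 (mem_CK_zpowers.1 hg.2.1).1
  have hpair := hle.isPair S.pair
  have hCT := hpair.CK_le_NS (H := ⊤) le_rfl
  have hPC := S.le_CK hab hz
  have hD := S.isDef_of_le hle hCT le_rfl (hPC.trans hCT)
  have hTC := NS_le_normalizer_CK (K := ⊤) (H := ⊤) Subgroup.le_normalizer (Subgroup.zpowers z)
    (eb M _ (bsec M p P e z))
  have hi := S.not_dvd_relIndex hpair hD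
  have hbr := S.br_mul_of_ple hle
  have hfr := fun x => S.frattini_central hle (x := x) (hPC.trans inf_le_left)
  have hT₀ : NS ⊤ P e ≤ NS ⊤ (Subgroup.zpowers z) (eb M _ (bsec M p P e z)) := fun x hx => by
    have hN := normalizer_le_of_isCyclic hcyc (Subgroup.zpowers_le.2 hz) hx.1
    exact mem_NS.2 ⟨hN, trivial, hle.cj_eq S.pair
      (Subgroup.le_normalizer_of_normal (Subgroup.mem_top _)) hN hx.1 hx.2.2⟩
  have hTi := invt_NS ⊤ (Subgroup.zpowers z) (eb M _ (bsec M p P e z))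
  have hTm : ∀ g ∈ Subgroup.normalizer (Subgroup.zpowers z : Set G),
      cj g (eb M _ (bsec M p P e z)) = eb M _ (bsec M p P e z) →
      g ∈ NS ⊤ (Subgroup.zpowers z) (eb M _ (bsec M p P e z)) := fun g h1 h2 => ⟨h1, trivial, h2⟩
  have hTH : NS ⊤ (Subgroup.zpowers z) (eb M _ (bsec M p P e z)) ≤ _ := inf_le_left
  rw [sup_eq_left.2 hPC] at hi
  rw [hC] at S₁ h2 hCT hPC hTC hi
  rw [hC'] at hfr
  generalize NS ⊤ (Subgroup.zpowers z) (eb M _ (bsec M p P e z)) = T at *
  generalize bsec M p P e z = b at *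
  have hn := ((isNilpotentBlock_iff hM).1
    ((isNilpotentBlock_iff_eb hM).2 ⟨hb, S₁.nilB_of_central hab h2⟩)).2
  obtain ⟨P', e', hP', -, S'⟩ := exists_pull hM S₁
  have hφ := (Subgroup.centralizer ({z} : Set G)).subtype_injective
  have hc' : IsCyclic P' := (P'.equivMapOfInjective _ hφ).isCyclic.2 (hP' ▸ hcyc)
  have hcard : Nat.card P' = Nat.card P := by rw [← hP', Subgroup.card_map_of_injective hφ]
  obtain ⟨w, w1, w2, w3, w4, w5⟩ := exists_w hM (le_centralizer_of_isCyclic hc') hb S' hn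
  obtain ⟨u, hu'⟩ := hc'.exists_generator
  obtain ⟨n, hn⟩ : ∃ n, Nat.card P = p ^ (n + 1) := by
    obtain ⟨_ | n, hn⟩ := hP.exists_card_eq
    exacts [(h1 (Subgroup.card_eq_one.1 hn)).elim, ⟨n, hn⟩]
  rw [hn] at hcard hu
  have h3 : orderOf (u ^ p ^ n) = p := by
    rw [orderOf_pow', orderOf_eq_card_of_forall_mem_zpowers hu', hcard, Nat.gcd_eq_right
      (pow_dvd_pow p n.le_succ), Nat.pow_div n.le_succ hp.out.pos, Nat.succ_sub (le_refl n), Nat.sub_self, pow_one]
    exact pow_ne_zero _ hp.out.ne_zero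
  have h4 : orderOf ((u ^ p ^ n : P') : G) = p := by
    rw [Subgroup.orderOf_coe, Subgroup.orderOf_coe, h3]
  have h5 := w4 (u ^ p ^ n) (Subgroup.mem_center_iff.2 fun g => Subtype.ext (by
    have := hC'.ge g.2 _ (mem_zpowers_of_isCyclic hcyc hz hzp (hP'.le ⟨_, (u ^ p ^ n).2, rfl⟩) h4)
    exact this.symm))
  have h6 : ∀ i, (w u + (1 - eB M b)) ^ i = w (u ^ i) + (1 - eB M b) := fun i => by
    induction i with
    | zero => simp [w2]
    | succ i ih =>
      rw [pow_succ, ih, pow_succ, w3, ← w2]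
      simp only [add_mul, mul_add, sub_mul, mul_sub, ← w3, mul_one, one_mul]
      abel
  haveI : CharP (Res M)[Subgroup.centralizer ({z} : Set G)] p :=
    charP_of_injective_algebraMap (algebraMap (Res M) _).injective p
  have h7 : w u - eB M b = w u + (1 - eB M b) - 1 := by abel
  obtain ⟨θ, hθ⟩ := H8.block_nonempty hb
  have h8 : (w u - eB M b) ^ (p ^ (n + 1) - 1) = redA M (((p ^ (n + 1) : ℕ) : ℂ) • fB {θ}) := by
    rw [h7, sub_one_pow_pred (k := Res M), ← hcard, ← w5 θ hθ, ← sum_range_pow_eq hu']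
    simp only [h6, Finset.sum_add_distrib, Finset.sum_const, Finset.card_range, hcard, nsmul_eq_mul,
      (CharP.cast_eq_zero_iff _ p _).2 (dvd_pow_self p n.succ_ne_zero), zero_mul, add_zero]
  have h9 : ∀ c, ((w u - eB M b) ^ (p ^ (n + 1) - 1)).coeff c = redC M ((p ^ (n + 1) : ℕ) *
      θ.1 1 / Nat.card (Subgroup.centralizer ({z} : Set G))) * redC M (θ.1 c⁻¹) := fun c => by
    rw [h8, coeff_redA, coeff_smul', coeff_fB, blockCoeff_singleton, ← H8.irr_inv,
      ← redC_mul (mem_of_redC_ne_zero (hu.redC_unit hM hθ)) (irr_mem _ _)]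
    congr 1
    ring
  have hn' : ∀ t ∈ T, ∀ c ∈ Subgroup.centralizer ({z} : Set G),
      t * c * t⁻¹ ∈ Subgroup.centralizer ({z} : Set G) :=
    fun t ht c => (Subgroup.mem_normalizer_iff.1 (hTC ht) c).1
  have h10 : ∀ t (ht : t ∈ T) (c : Subgroup.centralizer ({z} : Set G)),
      redC M (θ.1 ⟨t * c * t⁻¹, hn' t ht c c.2⟩) = redC M (θ.1 c) := fun t ht c =>
    hu.redC_eq hM ((forall_conj_mem_iff (inv_mem (hTC ht)) hb).2 (hTi _ (inv_mem ht)) θ hθ
      ⟨_, (H5.NEmb.ofLe hCT hn').isIrr_cj θ.2 ⟨t, ht⟩⟩ fun h h' e => congrArg θ.1 (Subtype.ext (by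
        change t * h' * t⁻¹ = h
        rw [e]; group))) hθ c
  let ι := (push (Res M) (Subgroup.centralizer ({z} : Set G)).subtype).codRestrict (RT (Res M) T)
    fun a => mem_RT.2 ((supp_push_subtype _ a).mono hCT)
  have hπ : ∀ x, (w u - eB M b) * x = x * (w u - eB M b) := fun x => by
    rw [sub_mul, mul_sub, w1, center_comm (eB_mem_center b)]
  have hN : Invt T (ι (w u - eB M b) ^ (p ^ (n + 1) - 1) : RT (Res M) T).1 := by
    rw [← map_pow]
    refine invt_of_coeff fun t ht g => ?_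
    by_cases hg : g ∈ Subgroup.centralizer ({z} : Set G)
    · refine (coeff_push_subtype _ _ ⟨_, hn' t ht g hg⟩).trans
        (Eq.trans ?_ (coeff_push_subtype _ _ ⟨g, hg⟩).symm)
      rw [h9, h9, ← h10 t ht ⟨g, hg⟩⁻¹]
      exact congrArg (fun x => _ * redC M (θ.1 x)) (Subtype.ext (by simp [mul_assoc]))
    · exact (coeff_push_subtype_of_not_mem _ _ fun h =>
        hg ((Subgroup.mem_normalizer_iff.1 (hTC ht) g).2 h)).trans
        (coeff_push_subtype_of_not_mem _ _ hg).symm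
  have hS : Ser (Res M) (p ^ (n + 1)) (ι (eB M b)) (ι (w u - eB M b)) (sform (Res M) T) := by
    refine ser_of (k := Res M) (p := p) (n := n) (b := ι (eB M b)) (π := ι (w u - eB M b))
      (z := ⟨(u ^ p ^ n : P'), hCT (Subtype.prop _)⟩)
      ((Subgroup.orderOf_coe (H := T) _).symm.trans h4) ?_
      (fun a => Subtype.ext (hTi.commute (mem_RT.1 a.2)).eq) ?_ ?_
      (fun a => Subtype.ext (hN.commute (mem_RT.1 a.2)).eq) fun a ha => ?_
    · rw [← map_mul, eB_mul_self hb]
    · rw [← map_mul, ← w2, mul_sub, ← w3, ← w3, one_mul, one_mul]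
    · rw [← map_pow, h7, sub_pow_char_pow_of_commute _ _ (Commute.one_right _), h6, h5, one_pow,
        add_sub_assoc, sub_sub_cancel_left, ← sub_eq_add_neg, ← sub_one_mul, map_mul, map_sub, map_one]
      congr 2
      exact Subtype.ext (push_single _ _ _)
    · have := sum_coeff_mul_eq_zero hM hCT hn' hi θ.2.isCharacter h10 (mem_RT.1 a.2)
        (ha.map (RT (Res M) T).val)
      rw [← map_pow, sform_apply, Subalgebra.coe_mul, coeff_mul_right',
        ← Fintype.sum_of_injective _ hφ (fun c => redC M ((p ^ (n + 1) : ℕ) * θ.1 1 /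
          Nat.card (Subgroup.centralizer ({z} : Set G))) * (a.1.coeff c * redC M (θ.1 c))) _
          (fun g hg => ?_) fun c => ?_, ← Finset.mul_sum, this, mul_zero]
      · exact mul_eq_zero_of_left (coeff_push_subtype_of_not_mem _ _ fun h =>
          hg ⟨⟨g, by simpa using h⟩, rfl⟩) _
      · rw [one_mul]
        refine Eq.trans ?_ (congrArg (· * _) (coeff_push_subtype _ _ c⁻¹)).symm
        rw [h9, inv_inv, mul_assoc, mul_comm (redC M (θ.1 c))]
        rfl
  obtain ⟨c, hc⟩ := exists_wt P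
  obtain ⟨x, hx, hx'⟩ := exists_tr_of_isDef ⟨(eb_mem_Fix b).1.mono hCT, hTi⟩ hD hc
  have hG : GD P T (Subgroup.normalizer (Subgroup.zpowers z : Set G)) (ι (eB M b))
      ⟨x, mem_RT.2 hx.1⟩ fun g => c g := by
    refine ⟨hPC.trans hCT, hTH, fun g => by exact_mod_cast congrArg (Nat.cast : ℕ → Res M) (hc g),
      hx.2, Subtype.ext (hx'.trans ?_), fun g hg hgT => by_contra fun h => hgT (hTm g hg ?_),
      fun g hg v hv h => by_contra fun hv1 => hg ?_⟩
    · simp [cj_eq_conj, coe_sg]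
    · exact ((blk_eb hb).eq_of_mul_ne_zero ((blk_eb hb).cj_of_mem_normalizer
        (hC' ▸ normalizer_le_normalizer_centralizer _ hg)) h).symm
    · obtain ⟨i, hi⟩ := hZ v hv hv1
      have h11 : g⁻¹ * z * g⁻¹⁻¹ ∈ Subgroup.zpowers z := mem_zpowers_of_isCyclic hcyc hz hzp
        (by rw [← hi, ← conj_zpow, inv_inv]; exact zpow_mem h i)
        ((MulEquiv.orderOf_eq (MulAut.conj g⁻¹) z).trans hzp)
      rw [← Subgroup.inv_mem_iff, mem_normalizer_iff_conj_smul]
      exact eq_of_conj_le (by rw [conj_smul_zpowers]; exact Subgroup.zpowers_le.2 h11)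
  obtain ⟨y, hy⟩ := exists_tr_of_free (P := P) (y := (1 - eB M B) * eb M _ b)
    (((invt_one P).sub ((eB_mem_Fix B).2.mono le_top)).mul (hTi.mono (hPC.trans hCT)))
    fun g hg v hv h => by_contra fun hv1 => hg (by
      rw [← coeff_br_of_mem (P := Subgroup.zpowers z) _ (Subgroup.centralizer_le
        (Subgroup.zpowers_le.2 (hZ v hv hv1)) ((CK_top _).le ((CK_top_zpowers v).ge
          (Subgroup.mem_centralizer_singleton_iff.2 (mul_inv_eq_iff_eq_mul.1 h).symm)))),
        br_mul_of_supp' _ (by rw [hC']; exact (eb_mem_Fix b).1), map_sub, br_one, sub_mul, one_mul, hbr, sub_self]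
      rfl)
  haveI : ((Subgroup.centralizer (P : Set G)).subgroupOf (NS ⊤ P e)).Normal :=
    Subgroup.normal_subgroupOf_of_le_normalizer
      (inf_le_left.trans (normalizer_le_normalizer_centralizer P))
  obtain ⟨t, ht, ht1, ht2⟩ := exists_gen_quot
    (isCyclic_quotient_of_isCyclic hP hcyc h1 inf_le_left (S.not_dvd_of_abelian hab)).1
  obtain ⟨τ, τ1, τ2, τ3⟩ := exists_traces hCT (hT₀ ht)
    (mem_normalizer_iff_conj_smul.1 (hTC (hT₀ ht))) (fun g hg => by
      obtain ⟨y, hy, c, hc, rfl⟩ := hfr g hg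
      obtain ⟨j, hj⟩ := ht1 y hy
      exact ⟨j, _, mul_mem (Subgroup.centralizer_le (Set.singleton_subset_iff.2 hz) hj) hc,
        by group⟩)
    (fun i hi j hj h => ht2 i hi j hj (hfree _ (mul_mem (pow_mem ht j) (inv_mem (pow_mem ht i))) z hz
      hz1 (mul_inv_eq_iff_eq_mul.2 (Subgroup.mem_centralizer_singleton_iff.1 h))))
    (eB_ne_zero hb) (eB_mul_self hb) (center_comm (eB_mem_center b)) (hTi _ (hT₀ ht))
    fun m m' s s' a a' => by_contra fun h => by
      have := card_le_blockRank_of_simples hM hb (ι := Bool) (fun i => cond i m m')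
        (Bool.rec s' s) (Bool.rec a' a) (by
          rintro (_ | _) (_ | _) h' <;> first
            | exact (h' rfl).elim
            | exact ⟨fun φ => h ⟨φ⟩⟩
            | exact ⟨fun φ => h ⟨φ.symm⟩⟩)
      rw [hu.blockRank hM hb] at this
      simp at this
  obtain ⟨n', hn', m, m1, m2, m3⟩ := hS.exists_simples hG (center_comm (eB_mem_center B))
    (eB_mul_self hB) hy τ τ1 τ2 fun i a ha => by
      obtain ⟨c, hc⟩ := hS.kerL a ha
      refine τ3 _ hπ ⟨p ^ (n + 1), ?_⟩ i a c (congrArg Subtype.val hc)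
      exact push_injective hφ (by rw [map_pow, map_zero]; exact congrArg Subtype.val hS.pow)
  exact (Fintype.card_fin _).ge.trans (hn'.trans ((Fintype.card_fin n').ge.trans
    (card_le_blockRank_of_simples hM hB m m1 m2 m3)))

theorem rank_eq_of_isCyclic (hB : IsPBlock M B) (h1 : P ≠ ⊥) :
    blockRank p B = Nat.card (autOf (NS ⊤ P e) P) :=
  (rank_le hM (le_centralizer_of_isCyclic hcyc) (free_of_isCyclic hM S hcyc) hB S h1).antisymm
    ((card_autOf inf_le_left).trans_le (le_rank_of_isCyclic hM S hcyc hB h1))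

end Cfsg.Agent.H6
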