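import Cfsg.Agent.H5.IndHom
import Cfsg.Agent.H4.Char3
import Cfsg.Agent.H1.Basic

/-! Feit–Thompson's degree bound for abelian subgroups with disjoint centralizers
(Isaacs, Theorem 14.9). -/

namespace Cfsg.Agent.H6

open Cfsg.Agent.H4 Cfsg.Agent.H5 Cfsg.Agent.H1
open scoped ComplexConjugate

variable {G : Type*} [Group G]

theorem norm_sq_inner_le [Fintype G] (β : G → ℂ) {ψ : G → ℂ} (hψ : classInner ψ ψ = 1) :
    ‖classInner β ψ‖ ^ 2 ≤ (classInner β β).re := by
  have h := classInner_self_re_nonneg (β - classInner β ψ • ψ)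
  rw [classInner_sub_left, classInner_sub_right, classInner_sub_right, classInner_smul_left,
    classInner_smul_left, classInner_smul_right, classInner_smul_right, hψ,
    ← classInner_conj_symm β ψ, mul_one, sub_self, sub_zero, mul_comm, Complex.mul_conj,
    Complex.normSq_eq_norm_sq, Complex.sub_re, Complex.ofReal_re] at h
  linarith

theorem sum_TI_lt [Fintype G] (N : Subgroup G) (X : Finset G) (h1 : (1 : G) ∉ X)
    (hX : ∀ x ∈ X, ∀ y : G, y * x * y⁻¹ ∈ X → y ∈ N) {χ : G → ℂ} (hχ : IsIrrCharacter G χ) :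
    ∑ x ∈ X, ‖χ x‖ ^ 2 < Nat.card N := by
  classical
  have hG : (0 : ℝ) < Nat.card G := by exact_mod_cast Nat.card_pos
  have hN : (0 : ℝ) < Nat.card N := by exact_mod_cast Nat.card_pos
  have h2 : (Nat.card G : ℝ) * ∑ x ∈ X, ‖χ x‖ ^ 2 =
      ∑ g : G, ‖χ g‖ ^ 2 * (Finset.univ.filter fun y : G => y⁻¹ * g * y ∈ X).card := by
    have h3 : ∀ y : G, ∑ x ∈ X, ‖χ x‖ ^ 2 = ∑ g : G, if y⁻¹ * g * y ∈ X then ‖χ g‖ ^ 2 else 0 := by
      intro y
      rw [← Equiv.sum_comp (MulAut.conj y).toEquiv]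
      simp only [MulEquiv.toEquiv_eq_coe, MulEquiv.coe_toEquiv, MulAut.conj_apply,
        hχ.isClassFunction _ _]
      rw [← Finset.sum_filter]
      refine Finset.sum_congr ?_ fun _ _ => rfl
      ext x; simp [mul_assoc]
    rw [Nat.card_eq_fintype_card, ← Finset.card_univ, ← nsmul_eq_mul, ← Finset.sum_const,
      Finset.sum_congr rfl fun y _ => h3 y, Finset.sum_comm]
    refine Finset.sum_congr rfl fun g _ => ?_
    rw [← Finset.sum_filter, Finset.sum_const, nsmul_eq_mul, mul_comm]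
  have h4 : ∀ g : G, ((Finset.univ.filter fun y : G => y⁻¹ * g * y ∈ X).card : ℝ) ≤ Nat.card N := by
    intro g
    rcases (Finset.univ.filter fun y : G => y⁻¹ * g * y ∈ X).eq_empty_or_nonempty with h | ⟨y, hy⟩
    · rw [h]; simp
    · rw [Nat.cast_le, Nat.card_eq_fintype_card, Fintype.card_subtype]
      refine Finset.card_le_card_of_injOn (fun z => z⁻¹ * y) (fun z hz => ?_)
        (fun a _ b _ e => by simpa using e)
      simp only [Finset.coe_filter, Finset.mem_univ, true_and, Set.mem_setOf_eq,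
        Finset.mem_filter] at hy hz ⊢
      refine hX _ hy _ ?_
      convert hz using 1; group
  have h5 : ∑ g : G, ‖χ g‖ ^ 2 = Nat.card G := by
    have := classInner_self_re χ
    rw [hχ.classInner_self, Complex.one_re] at this
    field_simp at this
    exact this.symm
  refine lt_of_mul_lt_mul_left ?_ hG.le
  rw [h2, ← h5, Finset.sum_mul]
  refine Finset.sum_lt_sum (fun g _ => mul_le_mul_of_nonneg_left (h4 g) (by positivity))
    ⟨1, Finset.mem_univ _, ?_⟩
  have h6 : (Finset.univ.filter fun y : G => y⁻¹ * 1 * y ∈ X) = ∅ := by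
    ext y; simp [h1]
  rw [h6]
  have := hχ.apply_one_ne_zero
  simp only [Finset.card_empty, Nat.cast_zero, mul_zero]
  positivity

theorem sum_mul_conj_eq_zero {N : Type*} [Group N] [Fintype N] (H : Subgroup N) [Fintype H]
    {α β : N → ℂ} (hα : ∀ h : H, ∀ g, α (h * g) = α g) (hβ : ∀ g, ∑ h : H, β (h * g) = 0) :
    ∑ g, α g * conj (β g) = 0 := by
  apply mul_left_cancel₀ (card_ne_zero_C H)
  rw [mul_zero, Nat.card_eq_fintype_card, ← Finset.card_univ, ← nsmul_eq_mul, ← Finset.sum_const]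
  have h1 : ∀ h : H, ∑ g, α g * conj (β g) = ∑ g, α g * conj (β (h * g)) := by
    intro h
    rw [← Equiv.sum_comp (Equiv.mulLeft (h : N))]
    simp [hα]
  rw [Finset.sum_congr rfl fun h _ => h1 h, Finset.sum_comm]
  refine Finset.sum_eq_zero fun g _ => ?_
  rw [← Finset.mul_sum, ← map_sum, hβ, map_zero, mul_zero]

theorem feit_thompson_bound [Fintype G] (H : Subgroup G) [Fintype H]
    (hab : ∀ a ∈ H, ∀ b ∈ H, a * b = b * a) (hZ : H ⊓ Subgroup.center G = ⊥)
    (hone : ∀ g : G, g ∉ Subgroup.center G → ∀ h ∈ H, h ≠ 1 → h * g = g * h → ∀ y : G, ∀ h' ∈ H,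
      h' ≠ 1 → h' * (y * g * y⁻¹) = (y * g * y⁻¹) * h' → y ∈ Subgroup.normalizer (H : Set G))
    {χ : G → ℂ} (hχ : IsIrrCharacter G χ) (hker : ¬ H ≤ charKer χ) :
    (Nat.card H : ℝ) * (classInner (fun h : H => χ h) (fun _ => 1)).re ^ 2 < (χ 1).re ^ 2 := by
  classical
  set N := Subgroup.normalizer (H : Set G) with hN
  set Z := Subgroup.center G with hZ'
  let X : Finset G := Finset.univ.filter fun g => g ∉ Z ∧ ∃ h ∈ H, h ≠ 1 ∧ h * g = g * h
  have hX : ∀ x ∈ X, ∀ y : G, y * x * y⁻¹ ∈ X → y ∈ N := by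
    intro x hx y hy
    obtain ⟨h1, h, h2, h3, h4⟩ := (Finset.mem_filter.1 hx).2
    obtain ⟨-, h', h5, h6, h7⟩ := (Finset.mem_filter.1 hy).2
    exact hone x h1 h h2 h3 h4 y h' h5 h6 h7
  have hXN : ∀ x ∈ X, x ∈ N := fun x hx => hX x hx x (by simpa using hx)
  have hlt := sum_TI_lt N X (fun h => (Finset.mem_filter.1 h).2.1 Z.one_mem) hX hχ
  let α : G → ℂ := fun g => (Nat.card H : ℂ)⁻¹ * ∑ h : H, χ (h * g)
  have hH0 := card_ne_zero_C H
  have hα : ∀ h : H, ∀ g, α (h * g) = α g := by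
    intro h g
    simp only [α]
    rw [← Equiv.sum_comp (Equiv.mulRight h) fun k : H => χ (k * g)]
    simp [mul_assoc]
  have hβ : ∀ g, ∑ h : H, (χ (h * g) - α (h * g)) = 0 := by
    intro g
    simp only [hα, Finset.sum_sub_distrib, Finset.sum_const, Finset.card_univ, nsmul_eq_mul,
      ← Nat.card_eq_fintype_card]
    simp only [α]
    field_simp
    ring
  have hχ0 := hχ.apply_one_ne_zero
  have hzn : ∀ z ∈ Z, ‖χ z / χ 1‖ = 1 := fun z hz => by
    rw [norm_div, hχ.isCharacter.mem_charCenter.1 (hχ.center_le_charCenter hz),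
      div_self (norm_ne_zero_iff.2 hχ0)]
  have hαz : ∀ z ∈ Z, ‖α z‖ = ‖α 1‖ := by
    intro z hz
    have : α z = χ z / χ 1 * α 1 := by
      simp only [α]
      rw [mul_left_comm]
      congr 1
      rw [Finset.mul_sum]
      refine Finset.sum_congr rfl fun h _ => ?_
      rw [mul_one, ← apply_mul_of_mem_charCenter (hχ.center_le_charCenter hz) hχ0,
        Subgroup.mem_center_iff.1 hz]
    rw [this, norm_mul, hzn z hz, one_mul]
  have hvan : ∀ g ∈ N, g ∉ X → g ∉ Z → α g = χ g := by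
    intro g hg hgX hgZ
    have h1 : ∀ h ∈ H, h * g = g * h → h = 1 := by
      intro h hh e
      by_contra hne
      exact hgX (Finset.mem_filter.2 ⟨Finset.mem_univ _, hgZ, h, hh, hne, e⟩)
    let F : H → H := fun h => ⟨h * (g * (h : G)⁻¹ * g⁻¹),
      H.mul_mem h.2 ((Subgroup.mem_normalizer_iff.1 hg _).1 (H.inv_mem h.2))⟩
    have hF : Function.Injective F := by
      intro a b e
      have h2 : (a : G) * (g * (a : G)⁻¹ * g⁻¹) = b * (g * (b : G)⁻¹ * g⁻¹) := congrArg Subtype.val e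
      have h3 := h1 _ (H.mul_mem (H.inv_mem b.2) a.2) (by
        calc (b : G)⁻¹ * a * g = (b : G)⁻¹ * (a * (g * (a : G)⁻¹ * g⁻¹)) * g * a := by group
          _ = g * ((b : G)⁻¹ * a) := by rw [h2]; group)
      exact Subtype.ext (inv_mul_eq_one.1 h3).symm
    simp only [α]
    rw [← (Equiv.ofBijective F (Finite.injective_iff_bijective.1 hF)).sum_comp]
    have h2 : ∀ h : H, χ ((F h : G) * g) = χ g := fun h => by
      rw [← hχ.isClassFunction g h]; congr 1; simp only [F]; group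
    simp only [Equiv.ofBijective_apply, h2, Finset.sum_const, Finset.card_univ, nsmul_eq_mul,
      ← Nat.card_eq_fintype_card]
    field_simp
  -- the sums over `N`
  have hHN : H ≤ N := Subgroup.le_normalizer
  let H' : Subgroup N := H.subgroupOf N
  have hsum : ∀ F : G → ℂ, ∑ h : H', F (h : N) = ∑ h : H, F h := fun F =>
    (Subgroup.subgroupOfEquivOfLe hHN).toEquiv.sum_comp (fun h : H => F h)
  have hα' : ∀ h : H', ∀ g : N, α ((h : N) * g : N) = α g := fun h g => hα ⟨h.1.1, h.2⟩ g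
  have hβ' : ∀ g : N, ∑ h : H', (χ ((h : N) * g : N) - α ((h : N) * g : N)) = 0 := fun g =>
    (hsum fun h => χ (h * g) - α (h * g)).trans (hβ g)
  have h1 := sum_mul_conj_eq_zero H' (α := fun g : N => α g) (β := fun g : N => χ g - α g) hα' hβ'
  obtain ⟨ψ, hψ, hψ1, hψ2⟩ : ∃ ψ, IsIrrCharacter N ψ ∧ classInner (fun n : N => χ n) ψ ≠ 0 ∧
      ¬ H' ≤ charKer ψ := by
    by_contra! hc
    refine hker fun h hh => ?_
    have := (hχ.isCharacter.restrict N).mem_charKer_of_forall_constituent (g := ⟨h, hHN hh⟩)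
      (fun ψ hψ hne => apply_of_mem_charKer (hc ψ hψ hne hh))
    have h2 := apply_of_mem_charKer this
    exact hχ.isCharacter.mem_charKer.2 h2
  have h2 : classInner (fun g : N => α g) ψ = 0 := by
    rw [classInner_def, sum_mul_conj_eq_zero H' (α := fun g : N => α g) hα' (hψ.sum_normal_mul_eq_zero H' hψ2), mul_zero]
  have h3 := norm_sq_inner_le ((fun g : N => χ g) - fun g : N => α g) hψ.classInner_self
  rw [classInner_sub_left, h2, sub_zero, classInner_self_re] at h3
  obtain ⟨c, hc⟩ := (hχ.isCharacter.restrict N).classInner_nat hψ.isCharacter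
  have hc1 : (1 : ℝ) ≤ c := by
    rw [hc] at hψ1
    exact_mod_cast Nat.pos_of_ne_zero (by exact_mod_cast hψ1)
  rw [hc, Complex.norm_natCast] at h3
  have hNpos : (0 : ℝ) < Nat.card N := by exact_mod_cast Nat.card_pos
  have h4 : (Nat.card N : ℝ) ≤ ∑ g : N, ‖χ g - α g‖ ^ 2 := by
    have : (1 : ℝ) ≤ (Nat.card N : ℝ)⁻¹ * ∑ g : N, ‖χ g - α g‖ ^ 2 := le_trans (by nlinarith) h3
    rwa [← div_eq_inv_mul, le_div_iff₀ hNpos, one_mul] at this
  have h5 : ∑ g : N, (‖χ g‖ ^ 2 - ‖α g‖ ^ 2) = ∑ g : N, ‖χ g - α g‖ ^ 2 := by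
    have h6 := congrArg Complex.re h1
    rw [Complex.re_sum, Complex.zero_re] at h6
    rw [← add_zero (∑ g : N, ‖χ g - α g‖ ^ 2), ← mul_zero 2, ← h6, Finset.mul_sum,
      ← Finset.sum_add_distrib]
    refine Finset.sum_congr rfl fun g _ => ?_
    simp only [← Complex.normSq_eq_norm_sq, Complex.normSq_apply, Complex.mul_re, Complex.conj_re,
      Complex.conj_im, Complex.sub_re, Complex.sub_im]
    ring
  let Z' : Finset G := Finset.univ.filter (· ∈ Z)
  have hdis : Disjoint X Z' := Finset.disjoint_left.2 fun x hx hx' =>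
    (Finset.mem_filter.1 hx).2.1 (Finset.mem_filter.1 hx').2
  have h6 : ∑ g : N, (‖χ g‖ ^ 2 - ‖α g‖ ^ 2) = ∑ g ∈ X ∪ Z', (‖χ g‖ ^ 2 - ‖α g‖ ^ 2) := by
    rw [← Finset.sum_subtype (Finset.univ.filter (· ∈ N)) (by simp)
      (fun g => ‖χ g‖ ^ 2 - ‖α g‖ ^ 2)]
    symm
    refine Finset.sum_subset (fun x hx => ?_) (fun x hx hx' => ?_)
    · refine Finset.mem_filter.2 ⟨Finset.mem_univ _, ?_⟩
      rcases Finset.mem_union.1 hx with h | h
      · exact hXN x h
      · exact Subgroup.center_le_normalizer _ (Finset.mem_filter.1 h).2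
    · rw [Finset.mem_union, not_or] at hx'
      rw [hvan x (Finset.mem_filter.1 hx).2 hx'.1 (by simpa [Z'] using hx'.2), sub_self]
  have hZc : Z'.card = Nat.card Z := by
    rw [Nat.card_eq_fintype_card, Fintype.card_subtype]
  have h7 : ∑ g ∈ Z', ‖χ g‖ ^ 2 = Nat.card Z * ‖χ 1‖ ^ 2 := by
    rw [← hZc, ← nsmul_eq_mul, ← Finset.sum_const]
    refine Finset.sum_congr rfl fun z hz => ?_
    rw [hχ.isCharacter.mem_charCenter.1 (hχ.center_le_charCenter (Finset.mem_filter.1 hz).2)]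
  have h8 : (Nat.card Z * Nat.card H : ℝ) * ‖α 1‖ ^ 2 ≤ ∑ g ∈ X ∪ Z', ‖α g‖ ^ 2 := by
    have h9 := card_sup_of_disjoint (N := Z) (H := H) Subgroup.le_normalizer_of_normal
      (by rw [inf_comm]; exact hZ)
    have h10 : ∀ g ∈ Z ⊔ H, ∃ z ∈ Z, ∃ h ∈ H, z * h = g := fun g hg =>
      (mem_sup_of_le_normalizer_left Subgroup.le_normalizer_of_normal).1 hg
    rw [← Nat.cast_mul, ← h9, Nat.card_eq_fintype_card, Fintype.card_subtype, ← nsmul_eq_mul,
      ← Finset.sum_const]
    refine le_trans (le_of_eq (Finset.sum_congr rfl fun g hg => ?_))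
      (Finset.sum_le_sum_of_subset_of_nonneg (f := fun g => ‖α g‖ ^ 2) (fun g hg => ?_)
        fun _ _ _ => by positivity)
    · obtain ⟨z, hz, h, hh, rfl⟩ := h10 g (Finset.mem_filter.1 hg).2
      rw [← Subgroup.mem_center_iff.1 hz, hα ⟨h, hh⟩, hαz z hz]
    · obtain ⟨z, hz, h, hh, rfl⟩ := h10 g (Finset.mem_filter.1 hg).2
      by_cases h1 : z * h ∈ Z
      · exact Finset.mem_union_right _ (Finset.mem_filter.2 ⟨Finset.mem_univ _, h1⟩)
      · refine Finset.mem_union_left _ (Finset.mem_filter.2 ⟨Finset.mem_univ _, h1, h, hh, ?_, ?_⟩)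
        · rintro rfl; exact h1 (by simpa using hz)
        · rw [← mul_assoc, Subgroup.mem_center_iff.1 hz]
  rw [← h5, h6, Finset.sum_sub_distrib, Finset.sum_union hdis, h7] at h4
  have hZpos : (0 : ℝ) < Nat.card Z := by exact_mod_cast Nat.card_pos
  have h9 : (Nat.card H : ℝ) * ‖α 1‖ ^ 2 < ‖χ 1‖ ^ 2 := by
    refine lt_of_mul_lt_mul_left ?_ hZpos.le
    linarith
  obtain ⟨a, ha⟩ := (hχ.isCharacter.restrict H).classInner_nat isCharacter_one
  obtain ⟨d, -, hd⟩ := hχ.exists_degree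
  have h10 : α 1 = a := by
    rw [← ha, classInner_one_right]; simp [α]
  rw [h10, hd, Complex.norm_natCast, Complex.norm_natCast] at h9
  rw [ha, hd, Complex.natCast_re, Complex.natCast_re]
  exact h9

theorem feit_thompson_bound' [Fintype G] (H : Subgroup G)
    (hab : ∀ a ∈ H, ∀ b ∈ H, a * b = b * a) (hZ : H ⊓ Subgroup.center G = ⊥)
    (hone : ∀ g : G, g ∉ Subgroup.center G → ∀ h ∈ H, h ≠ 1 → h * g = g * h → ∀ y : G, ∀ h' ∈ H,
      h' ≠ 1 → h' * (y * g * y⁻¹) = (y * g * y⁻¹) * h' → y ∈ Subgroup.normalizer (H : Set G))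
    {χ : G → ℂ} (hχ : IsIrrCharacter G χ) (h1 : χ 1 ≠ 1)
    (hM : ∀ M : Subgroup G, M.Normal → H ≤ M → M = ⊤) : (Nat.card H : ℝ) < (1 + (χ 1).re) ^ 2 := by
  classical
  obtain ⟨d, hd0, hd⟩ := hχ.exists_degree
  have hd1 : (1 : ℝ) < d := by
    have : d ≠ 1 := by rintro rfl; exact h1 (by simpa using hd)
    exact_mod_cast (show 1 < d by omega)
  have hprod : IsCharacter G (χ * fun g => conj (χ g)) := hχ.isCharacter.mul hχ.isCharacter.conj
  have hin : classInner (χ * fun g => conj (χ g)) (fun _ => 1) = 1 := by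
    exact (classInner_eq_mul_conj_one χ χ).symm.trans hχ.classInner_self
  set θ := (χ * fun g => conj (χ g)) - fun _ => 1 with hθdef
  have hθ : IsCharacter G θ := hprod.sub_irr isIrrCharacter_one (by rw [hin]; exact one_ne_zero)
  have hθ1 : classInner θ (fun _ => 1) = 0 := by
    rw [hθdef, classInner_sub_left, hin, classInner_one_one, sub_self]
  have hθd : (θ 1).re = d ^ 2 - 1 := by
    simp [hθdef, hd, sq]
  have hθH : (d : ℝ) - 1 ≤ (classInner (fun h : H => θ h) (fun _ => 1)).re := by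
    have h2 := (hχ.isCharacter.restrict H).degree_le_classInner_of_comm
      (fun a b => Subtype.ext (hab a a.2 b b.2))
    rw [classInner_eq_mul_conj_one] at h2
    have h3 : (fun h : H => θ h) = (fun h : H => χ h * conj (χ h)) - fun _ => 1 := rfl
    rw [h3, classInner_sub_left, classInner_one_one, Complex.sub_re, Complex.one_re]
    simp only [OneMemClass.coe_one, hd, Complex.natCast_re] at h2
    linarith
  obtain ⟨m, hm⟩ := isCharacter_iff_exists_nat.1 hθ
  have hm1 : m (irrOne G) = 0 := by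
    have := classInner_sum_irr_left (fun ψ => (m ψ : ℂ)) (irrOne G)
    rw [← hm] at this
    exact_mod_cast this.symm.trans hθ1
  set s := √(Nat.card H : ℝ) with hs
  have hs0 : 0 ≤ s := Real.sqrt_nonneg _
  have key : ∀ ψ : IrrCharacter G, m ψ ≠ 0 →
      s * (classInner (fun h : H => (ψ : G → ℂ) h) (fun _ => 1)).re < ((ψ : G → ℂ) 1).re := by
    intro ψ hψ
    have h2 := feit_thompson_bound H hab hZ hone ψ.2 (fun hle => by
      have := ψ.2.charKer_eq_top_iff.1 (hM _ ψ.2.isCharacter.charKer_normal hle)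
      exact hψ ((Subtype.ext this : ψ = irrOne G) ▸ hm1))
    obtain ⟨e, -, he⟩ := ψ.2.exists_degree
    refine lt_of_pow_lt_pow_left₀ 2 (by rw [he, Complex.natCast_re]; positivity) ?_
    rw [mul_pow, hs, Real.sq_sqrt (by positivity)]
    exact h2
  have h2 : s * (classInner (fun h : H => θ h) (fun _ => 1)).re < (θ 1).re := by
    have h3 : (fun h : H => θ h) =
        ∑ ψ : IrrCharacter G, (m ψ : ℂ) • fun h : H => (ψ : G → ℂ) h := by
      funext h; rw [hm]; simp
    have h4 : θ 1 = ∑ ψ : IrrCharacter G, (m ψ : ℂ) * (ψ : G → ℂ) 1 := by rw [hm]; simp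
    rw [h3, h4, classInner_sum_left, Complex.re_sum, Complex.re_sum, Finset.mul_sum]
    simp only [classInner_smul_left, Complex.mul_re, Complex.natCast_re, Complex.natCast_im, zero_mul,
      sub_zero]
    obtain ⟨ψ₀, hψ₀⟩ : ∃ ψ, m ψ ≠ 0 := by
      by_contra! h
      simp only [h4, h, Nat.cast_zero, zero_mul, Finset.sum_const_zero, Complex.zero_re] at hθd
      nlinarith
    refine Finset.sum_lt_sum (fun ψ _ => ?_) ⟨ψ₀, Finset.mem_univ _, ?_⟩
    · by_cases h : m ψ = 0
      · simp [h]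
      · rw [mul_left_comm]
        exact mul_le_mul_of_nonneg_left (key ψ h).le (by positivity)
    · rw [mul_left_comm]
      exact mul_lt_mul_of_pos_left (key ψ₀ hψ₀) (by exact_mod_cast Nat.pos_of_ne_zero hψ₀)
  have h3 : s < 1 + d := by
    rw [hθd] at h2
    by_contra! h
    nlinarith
  rw [hd, Complex.natCast_re, ← Real.sq_sqrt (x := (Nat.card H : ℝ)) (by positivity)]
  exact pow_lt_pow_left₀ h3 hs0 two_ne_zero

theorem ft_hyp_of_conj (H : Subgroup G) (hone : ∀ g : G, g ∉ Subgroup.center G → ∀ a b : G,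
      Subgroup.centralizer ({g} : Set G) ⊓ H.map (MulAut.conj a).toMonoidHom ≠ ⊥ →
      Subgroup.centralizer ({g} : Set G) ⊓ H.map (MulAut.conj b).toMonoidHom ≠ ⊥ →
      H.map (MulAut.conj a).toMonoidHom = H.map (MulAut.conj b).toMonoidHom) :
    ∀ g : G, g ∉ Subgroup.center G → ∀ h ∈ H, h ≠ 1 → h * g = g * h → ∀ y : G, ∀ h' ∈ H,
      h' ≠ 1 → h' * (y * g * y⁻¹) = (y * g * y⁻¹) * h' → y ∈ Subgroup.normalizer (H : Set G) := by
  intro g hg h hh h1 e y h' hh' h1' e'
  have h2 := hone g hg 1 y⁻¹ (fun hb => h1 (by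
      rw [← Subgroup.mem_bot, ← hb]
      exact ⟨Subgroup.mem_centralizer_singleton_iff.2 e, mem_map_conj.2 (by simpa using hh)⟩))
    (fun hb => h1' (by
      have : y⁻¹ * h' * y ∈ (⊥ : Subgroup G) := by
        rw [← hb]
        refine ⟨Subgroup.mem_centralizer_singleton_iff.2 ?_, mem_map_conj.2 (by simpa [mul_assoc] using hh')⟩
        calc y⁻¹ * h' * y * g = y⁻¹ * (h' * (y * g * y⁻¹)) * y := by group
          _ = g * (y⁻¹ * h' * y) := by rw [e']; group
      rw [Subgroup.mem_bot] at this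
      calc h' = y * (y⁻¹ * h' * y) * y⁻¹ := by group
        _ = 1 := by rw [this]; group))
  rw [Subgroup.mem_normalizer_iff]
  intro x
  have h3 : x ∈ H.map (MulAut.conj 1).toMonoidHom ↔ x ∈ H.map (MulAut.conj y⁻¹).toMonoidHom := by
    rw [h2]
  rw [mem_map_conj, mem_map_conj] at h3
  simpa using h3

end Cfsg.Agent.H6
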