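import Cfsg.Agent.H6.Fr8

/-!
# Degree congruences and heights
-/

set_option autoImplicit false
set_option linter.unusedSectionVars false
set_option linter.style.haveILetI false
set_option warn.classDefReducibility false

namespace Cfsg.Agent.H6.FS

open Finset Cfsg Cfsg.Agent.H4
open Cfsg.Agent.H8 (bfin mem_bfin)

variable {M : Ideal AlgInt} [hMm : M.IsMaximal] {G : Type*} [Group G] [Fintype G] {p : ℕ}
  [Fact p.Prime] {P : Type*} [Group P] [Fintype P] {A : Subgroup (MulAut P)}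
  {B : Set (IrrCharacter G)} {x : IrrCharacter G → P → ℂ}
  {ψ : Orb A → IrrCharacter G} {δ : IrrCharacter G → ℤ} {δ₀ : ℤ} (h : FB M p B A x)
  (s : FS p B A x ψ δ δ₀)
include h s

theorem cong {χ χ' : IrrCharacter G} (hχ : χ ∈ B \ Set.range ψ) (hχ' : χ' ∈ B \ Set.range ψ) :
    δ χ * (charDegree (χ : G → ℂ) : ℤ) ≡ δ χ' * (charDegree (χ' : G → ℂ) : ℤ)
      [ZMOD (p : ℤ) ^ (Nat.card G).factorization p] := by
  obtain ⟨k, hk⟩ := H8.exists_degree_of_vanish (p := p) ((χ'.2.isGen.intCast_smul (δ χ')).sub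
    (χ.2.isGen.intCast_smul (δ χ))) fun g hg =>
      sub_eq_zero.2 ((phi_vanish h s hχ' hg).trans (phi_vanish h s hχ hg).symm)
  rw [Pi.sub_apply, Pi.smul_apply, Pi.smul_apply, ← H8.irr_coe_charDegree, ← H8.irr_coe_charDegree,
    smul_eq_mul, smul_eq_mul] at hk
  exact Int.modEq_iff_dvd.2 ⟨k, by exact_mod_cast hk⟩

theorem cong0 (i : Orb A) {χ : IrrCharacter G} (hχ : χ ∈ B \ Set.range ψ) :
    (charDegree (ψ i : G → ℂ) : ℤ) ≡ -(Nat.card A * δ₀ * δ χ * (charDegree (χ : G → ℂ) : ℤ))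
      [ZMOD (p : ℤ) ^ (Nat.card G).factorization p] := by
  have h1 := s.reg i 1 (by simp [(Fact.out : p.Prime).ne_one])
  simp only [← H8.irr_coe_charDegree] at h1
  have h2 : δ₀ * (charDegree (ψ i : G → ℂ) : ℤ) + ∑ χ ∈ bfin (B \ Set.range ψ),
      δ χ * (charDegree (χ : G → ℂ) : ℤ) = 0 := by exact_mod_cast h1
  have h3 := (Int.ModEq.sum (s := bfin (B \ Set.range ψ))
    fun χ' hχ' => cong h s (mem_bfin.1 hχ') hχ).mul_left (-δ₀)
  rw [sum_const, H8.card_bfin, s.card, ← neg_eq_iff_add_eq_zero.2 h2] at h3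
  convert h3 using 1
  · rcases s.sign0 with h | h <;> simp [h]
  · simp only [nsmul_eq_mul]; ring

theorem height_zero (hA : ¬ p ∣ Nat.card A) (hd : blockDefect p B ≠ 0) {χ : IrrCharacter G}
    (hχ : χ ∈ B) : blockHeight p B (χ : G → ℂ) = 0 := by
  have hp : p.Prime := Fact.out
  obtain ⟨⟨χ₀, h0⟩⟩ := (Nat.card_pos_iff.1 (s.card ▸ Nat.card_pos (α := A))).1
  have h1 : (p : ℤ) ^ (H8.bmin p B + 1) ∣ (p : ℤ) ^ (Nat.card G).factorization p :=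
    pow_dvd_pow _ (by have := H8.defect_add_bmin (p := p) ⟨χ, hχ⟩; omega)
  have h2 : ∀ {d : ℤ} (n : ℤ), d = 1 ∨ d = -1 → ((p : ℤ) ^ (H8.bmin p B + 1) ∣ d * n ↔
      (p : ℤ) ^ (H8.bmin p B + 1) ∣ n) := fun n h => by rcases h with h | h <;> simp [h]
  have h3 : ∀ χ ∈ B, (p : ℤ) ^ (H8.bmin p B + 1) ∣ charDegree (χ : G → ℂ) ↔
      (p : ℤ) ^ (H8.bmin p B + 1) ∣ charDegree (χ₀ : G → ℂ) := fun χ hχ => by
    by_cases h4 : χ ∈ Set.range ψ
    · obtain ⟨i, rfl⟩ := h4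
      rw [((cong0 h s i h0).of_dvd h1).dvd_iff, dvd_neg, mul_assoc, mul_assoc,
        ← h2 (charDegree χ₀.1) (s.sign _ h0.1), ← h2 (δ χ₀ * _) s.sign0]
      exact ⟨(Nat.isCoprime_iff_coprime.2 (hp.coprime_iff_not_dvd.2 hA)).pow_left.dvd_of_dvd_mul_left,
        fun h => h.mul_left _⟩
    · rw [← h2 _ (s.sign _ hχ), ((cong h s ⟨hχ, h4⟩ h0).of_dvd h1).dvd_iff,
        h2 _ (s.sign _ h0.1)]
  have h4 : ∀ χ ∈ B, blockHeight p B (χ : G → ℂ) = 0 ↔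
      ¬ (p : ℤ) ^ (H8.bmin p B + 1) ∣ charDegree (χ : G → ℂ) := fun χ hχ => by
    rw [← H8.not_dvd_rdeg_iff hχ, ← H8.pow_mul_rdeg (p := p) hχ, pow_succ, Nat.cast_mul, Nat.cast_pow,
      mul_dvd_mul_iff_left (pow_ne_zero _ (Nat.cast_ne_zero.2 hp.ne_zero)), Int.natCast_dvd_natCast]
  obtain ⟨χ₁, h5, h6⟩ := H8.exists_height_zero (p := p) ⟨χ, hχ⟩
  rwa [h4 _ hχ, h3 _ hχ, ← h3 _ h5, ← h4 _ h5]

end Cfsg.Agent.H6.FS
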