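import Cfsg.Agent.H6.HallSym2
import Cfsg.Prelude.Def_HallClasses

/-! Hall subgroups of symmetric and alternating groups, part 3: the classification. -/

set_option autoImplicit false

namespace Cfsg.Agent.H6.HS

open Equiv Equiv.Perm Subgroup MulAction Cfsg.Agent.H1
open scoped Pointwise

/-- the three types of non-trivial Hall subgroups -/
def Typ (π : Set ℕ) (n s : ℕ) : Prop :=
  (n.Prime ∧ s = 1 ∧ ∀ r : ℕ, r.Prime → r ≤ n → (r ∈ π ↔ r < n)) ∨
  (((n = 7 ∧ s = 3) ∨ (n = 8 ∧ s = 4)) ∧ ∀ r : ℕ, r.Prime → r ≤ n → (r ∈ π ↔ (r = 2 ∨ r = 3)))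

theorem Typ.unique {π : Set ℕ} {n s t : ℕ} (h : Typ π n s) (h' : Typ π n t) : s = t := by
  have h8 : ¬ Nat.Prime 8 := by decide
  have key : ∀ {s t}, (n.Prime ∧ s = 1 ∧ ∀ r : ℕ, r.Prime → r ≤ n → (r ∈ π ↔ r < n)) →
      (((n = 7 ∧ t = 3) ∨ (n = 8 ∧ t = 4)) ∧
        ∀ r : ℕ, r.Prime → r ≤ n → (r ∈ π ↔ (r = 2 ∨ r = 3))) → False := by
    rintro s t ⟨h1, -, h2⟩ ⟨h3, h4⟩
    have h5 := (h2 5 Nat.prime_five (by omega)).2 (by omega)
    have := (h4 5 Nat.prime_five (by omega)).1 h5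
    omega
  rcases h with h | h <;> rcases h' with h' | h'
  · rw [h.2.1, h'.2.1]
  · exact (key h h').elim
  · exact (key h' h).elim
  · have := h.1; have := h'.1; omega

theorem Typ.le {π : Set ℕ} {n s : ℕ} (h : Typ π n s) : s ≤ n := by
  rcases h with ⟨h1, h2, -⟩ | ⟨h, -⟩
  · have := h1.two_le; omega
  · omega

variable {Ω : Type} [Fintype Ω] [DecidableEq Ω] {π : Set ℕ} {K : Subgroup (Perm Ω)}

/-- stabilizer of the partition `{B, Bᶜ}` -/
def MB (B : Finset Ω) : Subgroup (Perm Ω) where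
  carrier := {g | (∀ x, g x ∈ B ↔ x ∈ B) ∨ (∀ x, g x ∈ B ↔ x ∉ B)}
  mul_mem' := by
    rintro g h (hg | hg) (hh | hh)
    · exact Or.inl fun x => by rw [Perm.mul_apply, hg, hh]
    · exact Or.inr fun x => by rw [Perm.mul_apply, hg, hh]
    · exact Or.inr fun x => by rw [Perm.mul_apply, hg, hh]
    · exact Or.inl fun x => by rw [Perm.mul_apply, hg, hh, not_not]
  one_mem' := Or.inl fun _ => Iff.rfl
  inv_mem' := by
    rintro g (hg | hg)
    · exact Or.inl fun x => by rw [← hg (g⁻¹ x)]; simp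
    · refine Or.inr fun x => ?_
      have := hg (g⁻¹ x)
      simp only [Perm.coe_inv, Equiv.apply_symm_apply] at this ⊢
      rw [this, not_not]

theorem mem_MB {B : Finset Ω} {g : Perm Ω} :
    g ∈ MB B ↔ (∀ x, g x ∈ B ↔ x ∈ B) ∨ (∀ x, g x ∈ B ↔ x ∉ B) := Iff.rfl

theorem St_le_MB (B : Finset Ω) : St B ≤ MB B := fun _ hg => Or.inl hg

theorem MB_eq_St {B : Finset Ω} (h : 2 * B.card ≠ Fintype.card Ω) : MB B = St B := by
  refine le_antisymm ?_ (St_le_MB B)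
  rintro g (hg | hg)
  · exact hg
  · exfalso
    have h1 : g • Bᶜ = B := smul_eq_iff.2 fun x => by rw [hg, Finset.mem_compl]
    have h2 := congrArg Finset.card h1
    rw [Finset.card_smul_finset, Finset.card_compl] at h2
    have := B.card_le_univ
    omega

theorem general (hK : Good π K) (htwo : Two π (Fintype.card Ω))
    (hnot : ∃ t, t.Prime ∧ t ≤ Fintype.card Ω ∧ t ∉ π) :
    ∃ B : Finset Ω, Typ π (Fintype.card Ω) B.card ∧ K ≤ MB B := by
  classical
  set n := Fintype.card Ω with hn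
  obtain ⟨t, ht, htn, htπ⟩ := hnot
  have hn3 := htwo.three_le
  have hn4 : 4 ≤ n := by
    by_contra hlt
    obtain ⟨r, s, hr, hs, hrs, hrπ, hsπ, hrm, hsm⟩ := htwo
    have h1 : r ≠ t := fun h => htπ (h ▸ hrπ)
    have h2 : s ≠ t := fun h => htπ (h ▸ hsπ)
    have := hr.two_le; have := hs.two_le; have := ht.two_le
    omega
  haveI : Nonempty Ω := Fintype.card_pos_iff.1 (by omega)
  let O : Ω → Finset Ω := fun x => Finset.univ.filter fun y => ∃ k ∈ K, k x = y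
  have hO : ∀ x y, y ∈ O x ↔ ∃ k ∈ K, k x = y := fun x y => by simp [O]
  obtain ⟨x₀, -, hx₀⟩ := Finset.exists_max_image Finset.univ (fun x => (O x).card)
    Finset.univ_nonempty
  set B := O x₀ with hB
  set m := B.card with hm
  have hKB : K ≤ St B := by
    intro g hg y
    rw [hO, hO]
    constructor
    · rintro ⟨k, hk, h⟩
      exact ⟨g⁻¹ * k, mul_mem (inv_mem hg) hk, by simp [h]⟩
    · rintro ⟨k, hk, h⟩
      exact ⟨g * k, mul_mem hg hk, by simp [h]⟩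
  have htrB : ∀ x ∈ B, ∀ y ∈ B, ∃ k ∈ K, k ∈ St B ∧ k x = y := by
    intro x hx y hy
    obtain ⟨k, hk, rfl⟩ := (hO _ _).1 hx
    obtain ⟨l, hl, rfl⟩ := (hO _ _).1 hy
    have : l * k⁻¹ ∈ K := mul_mem hl (inv_mem hk)
    exact ⟨l * k⁻¹, this, hKB this, by simp⟩
  by_cases hBu : B = Finset.univ
  · have htr : IsPretransitive K Ω := ⟨fun x y => by
      obtain ⟨k, hk, -, h⟩ := htrB x (hBu ▸ Finset.mem_univ x) y (hBu ▸ Finset.mem_univ y)
      exact ⟨⟨k, hk⟩, h⟩⟩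
    rcases trans_case π n Ω K rfl hK htr htwo with hA | ⟨h8, hπ, C, hC, hKC⟩
    · exact absurd (prime_mem_of_alt_le hK hA ht htn (Or.inr hn4)) htπ
    · refine ⟨C, Or.inr ⟨Or.inr ⟨h8, hC⟩, fun r hr hle => hπ r hr (h8 ▸ hle)⟩, fun k hk => ?_⟩
      rcases hKC k hk with h | h
      · exact Or.inl (smul_eq_iff.1 h)
      · refine Or.inr fun x => ?_
        rw [← smul_eq_iff.1 h x, Finset.mem_compl, not_not]
  have hmn : m < n := Finset.card_lt_card (Finset.ssubset_univ_iff.2 hBu)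
  have hpow : ∀ p e, p.Prime → p ∈ π → 3 ≤ p ^ e → p ^ e ≤ n → p ^ e ≤ m := by
    intro p e hp hπ h3 hle
    obtain ⟨C, hC, hCt⟩ := hK.orb hp hπ h3 hle
    obtain ⟨x, hx⟩ : C.Nonempty := Finset.card_pos.1 (by omega)
    rw [← hC]
    refine le_trans (Finset.card_le_card fun y hy => ?_) (hx₀ x (Finset.mem_univ x))
    obtain ⟨g, hg, h, -⟩ := hCt x hx y hy
    exact (hO _ _).2 ⟨g, hg, h⟩
  have hodd : ∀ p, p.Prime → p ∈ π → p ≤ n → p ≠ 2 → p ≤ m := by
    intro p hp hπ hle h2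
    have := hp.two_le
    simpa using hpow p 1 hp hπ (by rw [pow_one]; omega) (by rwa [pow_one])
  have hm3 : 3 ≤ m := by
    obtain ⟨q, hq, hqπ, hqn, hq2⟩ := htwo.other 2
    have := hodd q hq hqπ hqn hq2
    have := hq.two_le
    omega
  have hle : ∀ p, p.Prime → p ∈ π → p ≤ n → p ≤ m := by
    intro p hp hπ hle
    by_cases h2 : p = 2
    · omega
    · exact hodd p hp hπ hle h2
  have htwo' : Two π m := by
    obtain ⟨r, s, hr, hs, hrs, hrπ, hsπ, hrm, hsm⟩ := htwo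
    exact ⟨r, s, hr, hs, hrs, hrπ, hsπ, hle r hr hrπ hrm, hle s hs hsπ hsm⟩
  have hgood : Good π (con K B) := by
    refine con_good hK.pi fun p hp hπ => ?_
    haveI := Fact.mk hp
    obtain ⟨P, hP, hPK⟩ := hK.sylow hp hπ
    exact not_dvd_of_sylowIn (hP.inf (AB_le B) (hPK.trans (hKB.trans (St_le_normalizer B))))
      (inf_le_left.trans hPK)
  have hcard : Fintype.card B = m := by simp [hm]
  rcases trans_case π m B (con K B) hcard hgood (con_trans htrB) htwo' with hA | ⟨h8, hπ, -⟩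
  swap
  · have := hpow 3 2 Nat.prime_three ((hπ 3 Nat.prime_three (by norm_num)).2 (Or.inr rfl))
      (by norm_num) (by omega)
    omega
  have hm4 : 4 ≤ m := by
    by_contra hlt
    obtain ⟨q, hq, hqπ, hqm, hq3⟩ := htwo'.other 3
    have := hq.two_le
    have h2 : q = 2 := by omega
    subst h2
    have := hpow 2 2 hq hqπ (by norm_num) (by omega)
    omega
  have hπm : ∀ p, p.Prime → p ≤ m → p ∈ π := fun p hp hle =>
    prime_mem_of_alt_le hgood hA hp (hcard ▸ hle) (Or.inr (hcard ▸ hm4))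
  have h2m : n < 2 * m := by
    obtain ⟨e, he1, he2, he3⟩ := exists_top_pow Nat.prime_two (show 2 ≤ n by omega)
    have := hpow 2 e Nat.prime_two (hπm 2 Nat.prime_two (by omega)) (by omega) he2
    omega
  have hBc : Bᶜ.card = n - m := Finset.card_compl B
  have hKBc : K ≤ St Bᶜ := fun g hg x => by rw [Finset.mem_compl, Finset.mem_compl, hKB hg x]
  have hnt := nt m (n - m) (by omega) (by omega) (fun p hp hpm => by
    obtain ⟨P, hP, hPK⟩ := hK.sylow hp (hπm p hp hpm)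
    have := not_dvd_choose (by omega) hP (hPK.trans hKBc)
    rwa [hBc, ← hn, show n = m + (n - m) by omega, Nat.add_sub_cancel_left] at this)
  refine ⟨Bᶜ, ?_, hKBc.trans (St_le_MB _)⟩
  rw [hBc]
  rcases hnt with ⟨h1, h2⟩ | ⟨h1, h2⟩
  · refine Or.inl ⟨by rwa [show n = m + 1 by omega], h1, fun r hr hrn => ⟨fun h => ?_, fun h => ?_⟩⟩
    · have := hle r hr h hrn; omega
    · exact hπm r hr (by omega)
  · refine Or.inr ⟨Or.inl ⟨by omega, h2⟩, fun r hr hrn => ⟨fun h => ?_, fun h => ?_⟩⟩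
    · have := hle r hr h hrn
      have := hr.two_le
      have h4 : r ≠ 4 := by rintro rfl; exact absurd hr (by decide)
      omega
    · exact hπm r hr (by omega)

theorem pi_of_relIndex {U G : Subgroup (Perm Ω)}
    (h : ∀ p, p.Prime → p ≤ Fintype.card Ω → p ∉ π →
      p ∣ U.relIndex G ∧ ¬ p * p ∣ (Fintype.card Ω).factorial) :
    ∀ p, p.Prime → p ∣ Nat.card (U ⊓ G : Subgroup (Perm Ω)) → p ∈ π := by
  intro p hp hd
  by_contra hπ
  obtain ⟨h1, h2⟩ := h p hp (prime_le_of_dvd_card _ hp hd) hπ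
  refine h2 ((Nat.mul_dvd_mul hd h1).trans ?_)
  rw [card_inf_mul_relIndex, ← Nat.card_eq_fintype_card, ← Nat.card_perm]
  exact card_subgroup_dvd_card G

theorem not_sq_dvd_factorial {n : ℕ} (hn : n.Prime) : ¬ n * n ∣ n.factorial := by
  intro h
  obtain ⟨k, rfl⟩ : ∃ k, n = k + 1 := ⟨n - 1, by have := hn.pos; omega⟩
  rw [Nat.factorial_succ] at h
  have := (hn.dvd_factorial).1 (Nat.dvd_of_mul_dvd_mul_left hn.pos h)
  omega

theorem MB_hall {G : Subgroup (Perm Ω)} (hG : alternatingGroup Ω ≤ G) (h3 : 3 ≤ Fintype.card Ω)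
    {B : Finset Ω} (h : Typ π (Fintype.card Ω) B.card) : IsPiHallOf π (MB B ⊓ G) G := by
  have hidx := relIndex_St h3 hG B
  rcases h with ⟨hn, h1, hπ⟩ | ⟨h78, hπ⟩
  · rw [h1, Nat.choose_one_right, ← MB_eq_St (by omega)] at hidx
    refine ⟨inf_le_right, pi_of_relIndex fun p hp hle hnπ => ?_, fun p hp hpπ hd => ?_⟩
    · have : p = Fintype.card Ω := by
        by_contra hne
        exact hnπ ((hπ p hp hle).2 (by omega))
      rw [hidx, this]
      exact ⟨dvd_rfl, not_sq_dvd_factorial hn⟩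
    · rw [inf_relIndex_right, hidx, Nat.prime_dvd_prime_iff_eq hp hn] at hd
      have := (hπ p hp hd.le).1 hpπ
      omega
  · have h35 : (MB B).relIndex G = 35 := by
      rcases h78 with ⟨h7, hB⟩ | ⟨h8, hB⟩
      · rw [MB_eq_St (by omega), hidx, h7, hB]; decide
      · rw [h8, hB, show Nat.choose 8 4 = 70 by decide] at hidx
        have h1 := relIndex_mul_relIndex (St B ⊓ G) (MB B ⊓ G) G
          (inf_le_inf_right G (St_le_MB B)) inf_le_right
        rw [inf_relIndex_right, inf_relIndex_right, hidx] at h1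
        have h2 : (St B ⊓ G).relIndex (MB B ⊓ G) = 2 := by
          obtain ⟨a, haA, ha⟩ := exists_alt_smul h3 (B := Bᶜ) (B' := B)
            (by rw [Finset.card_compl]; omega)
          have ha' : ∀ x, a x ∈ B ↔ x ∉ B := fun x => by
            rw [smul_eq_iff.1 ha x, Finset.mem_compl]
          obtain ⟨x₀, hx₀⟩ : B.Nonempty := Finset.card_pos.1 (by omega)
          rw [relIndex_eq_two_iff]
          refine ⟨a, ⟨Or.inr ha', hG haA⟩, ?_⟩
          rintro b ⟨hb | hb, hbG⟩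
          · refine Or.inr ⟨⟨hb, hbG⟩, fun hc => ?_⟩
            have := hc.1 x₀
            rw [Perm.mul_apply, hb, ha'] at this
            tauto
          · refine Or.inl ⟨⟨fun x => by rw [Perm.mul_apply, hb, ha', not_not],
              mul_mem hbG (hG haA)⟩, fun hc => ?_⟩
            have := hc.1 x₀
            rw [hb] at this
            tauto
        rw [h2] at h1
        omega
    refine ⟨inf_le_right, pi_of_relIndex fun p hp hle hnπ => ?_, fun p hp hpπ hd => ?_⟩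
    · rw [h35]
      have h1 : ¬ (p = 2 ∨ p = 3) := fun h => hnπ ((hπ p hp hle).2 h)
      have := hp.two_le
      have h4 : p ≠ 4 := by rintro rfl; exact absurd hp (by decide)
      have h6 : p ≠ 6 := by rintro rfl; exact absurd hp (by decide)
      have h8 : p ≠ 8 := by rintro rfl; exact absurd hp (by decide)
      have h57 : p = 5 ∨ p = 7 := by omega
      rcases h78 with ⟨h7, -⟩ | ⟨h7, -⟩ <;> rw [h7] <;> rcases h57 with rfl | rfl <;> decide
    · rw [inf_relIndex_right, h35] at hd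
      have hle : p ≤ 7 := by
        rw [show 35 = 5 * 7 by norm_num] at hd
        rcases (Nat.Prime.dvd_mul hp).1 hd with h | h <;>
          have := Nat.le_of_dvd (by norm_num) h <;> omega
      rcases (hπ p hp (by omega)).1 hpπ with rfl | rfl <;> omega

theorem good_of_hall {G H : Subgroup (Perm Ω)} (hG : alternatingGroup Ω ≤ G)
    (hH : IsPiHallOf π H G) : Good π H := by
  refine ⟨hH.2.1, fun p hp hπ => ?_⟩
  have := (isPiHallOf_inf hH hG (le_normalizer_of_normal)).2.2 p hp hπ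
  rwa [inf_relIndex_right] at this

theorem classify {G H : Subgroup (Perm Ω)} (hG : alternatingGroup Ω ≤ G)
    (hH : IsPiHallOf π H G) (htwo : Two π (Fintype.card Ω))
    (hnot : ∃ t, t.Prime ∧ t ≤ Fintype.card Ω ∧ t ∉ π) :
    ∃ B : Finset Ω, Typ π (Fintype.card Ω) B.card ∧ H = MB B ⊓ G := by
  obtain ⟨B, hB, hle⟩ := general (good_of_hall hG hH) htwo hnot
  exact ⟨B, hB, eq_of_isPiHallOf_of_le hH (le_inf hle hH.1) inf_le_right
    (MB_hall hG htwo.three_le hB).2.1⟩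

theorem hallE {G : Subgroup (Perm Ω)} (hG : alternatingGroup Ω ≤ G)
    (htwo : Two π (Fintype.card Ω)) (hnot : ∃ t, t.Prime ∧ t ≤ Fintype.card Ω ∧ t ∉ π) :
    (∃ H, IsPiHallOf π H G) ↔ ∃ s, Typ π (Fintype.card Ω) s := by
  constructor
  · rintro ⟨H, hH⟩
    obtain ⟨B, hB, -⟩ := classify hG hH htwo hnot
    exact ⟨_, hB⟩
  · rintro ⟨s, hs⟩
    obtain ⟨B, -, hB⟩ := Finset.exists_subset_card_eq (s := (Finset.univ : Finset Ω)) (n := s)
      (by simpa using hs.le)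
    exact ⟨_, MB_hall hG htwo.three_le (hB ▸ hs)⟩

theorem hallC {G H H' : Subgroup (Perm Ω)} (hG : alternatingGroup Ω ≤ G)
    (htwo : Two π (Fintype.card Ω)) (hnot : ∃ t, t.Prime ∧ t ≤ Fintype.card Ω ∧ t ∉ π)
    (hH : IsPiHallOf π H G) (hH' : IsPiHallOf π H' G) : ∃ g ∈ G, MulAut.conj g • H = H' := by
  obtain ⟨B, hB, rfl⟩ := classify hG hH htwo hnot
  obtain ⟨B', hB', rfl⟩ := classify hG hH' htwo hnot
  obtain ⟨g, hgA, hg⟩ := exists_alt_smul htwo.three_le (hB.unique hB')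
  have hg' := smul_eq_iff.1 hg
  have hg2 : ∀ x, g⁻¹ x ∈ B ↔ x ∈ B' := fun x => by rw [← hg']; simp
  refine ⟨g, hG hgA, ?_⟩
  ext k
  rw [mem_pointwise_smul_iff_inv_smul_mem, mem_inf, mem_inf]
  have e : (MulAut.conj g)⁻¹ • k = g⁻¹ * k * g := by simp
  rw [e]
  refine and_congr ?_ ⟨fun h => ?_, fun h => mul_mem (mul_mem (inv_mem (hG hgA)) h) (hG hgA)⟩
  · rw [mem_MB, mem_MB]
    simp only [Perm.mul_apply, hg2]
    refine or_congr ⟨fun h x => ?_, fun h x => by rw [h, hg']⟩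
      ⟨fun h x => ?_, fun h x => by rw [h, hg']⟩
    · simpa [hg2] using (h (g⁻¹ x)).trans (hg2 x)
    · simpa [hg2] using (h (g⁻¹ x)).trans (hg2 x).not
  · simpa [mul_assoc] using mul_mem (mul_mem (hG hgA) h) (inv_mem (hG hgA))

section general

variable {Γ : Type*} [Group Γ] [Finite Γ]

theorem hall_iff_top (h : ∀ r, r.Prime → r ∣ Nat.card Γ → r ∈ π) {H : Subgroup Γ} :
    IsPiHall π H ↔ H = ⊤ := by
  constructor
  · intro hH
    rw [← index_eq_one]
    by_contra hne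
    obtain ⟨p, hp, hd⟩ := Nat.exists_prime_and_dvd hne
    exact hH.2 p hp (h p hp (hd.trans (index_dvd_card H))) hd
  · rintro rfl
    refine ⟨fun p hp hd => h p hp (by simpa using hd), fun p hp _ hd => ?_⟩
    rw [index_top] at hd
    exact hp.one_lt.ne' (Nat.dvd_one.1 hd)

theorem exists_one_prime {N : ℕ} (hN : N ≠ 0)
    (h : ∀ r s : ℕ, r.Prime → s.Prime → r ∈ π → s ∈ π → r ∣ N → s ∣ N → r = s) :
    ∃ p : ℕ, p.Prime ∧ ∀ r, r.Prime → r ∣ N → (r ∈ π ↔ r = p) := by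
  by_cases hp : ∃ p, p.Prime ∧ p ∈ π ∧ p ∣ N
  · obtain ⟨p, hp, hπ, hd⟩ := hp
    exact ⟨p, hp, fun r hr hrd => ⟨fun h' => h r p hr hp h' hπ hrd hd, fun h' => h' ▸ hπ⟩⟩
  · obtain ⟨p, hle, hp'⟩ := Nat.exists_infinite_primes (N + 1)
    refine ⟨p, hp', fun r hr hrd => ⟨fun h' => absurd ⟨r, hr, h', hrd⟩ hp, fun h' => ?_⟩⟩
    have := Nat.le_of_dvd (Nat.pos_of_ne_zero hN) hrd
    omega

theorem pi_iff_pgroup {p : ℕ} (hp : p.Prime) (h : ∀ r, r.Prime → r ∣ Nat.card Γ → (r ∈ π ↔ r = p))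
    {H : Subgroup Γ} : IsPiSubgroup π H ↔ IsPGroup p H := by
  haveI := Fact.mk hp
  constructor
  · intro hH
    exact IsPGroup.of_card (Nat.eq_prime_pow_of_unique_prime_dvd Nat.card_pos.ne' fun {d} hd hdd =>
      (h d hd (hdd.trans (card_subgroup_dvd_card H))).1 (hH d hd hdd))
  · intro hH r hr hd
    obtain ⟨k, hk⟩ := hH.exists_card_eq
    refine (h r hr (hd.trans (card_subgroup_dvd_card H))).2 ?_
    rw [hk] at hd
    exact (Nat.prime_dvd_prime_iff_eq hr hp).1 (hr.dvd_of_dvd_pow hd)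

theorem hall_iff_sylow {p : ℕ} (hp : p.Prime) (h : ∀ r, r.Prime → r ∣ Nat.card Γ → (r ∈ π ↔ r = p))
    {H : Subgroup Γ} : IsPiHall π H ↔ IsSylowIn p H ⊤ := by
  constructor
  · intro hH
    refine ⟨le_top, (pi_iff_pgroup hp h).1 hH.1, fun hd => ?_⟩
    rw [relIndex_top_right] at hd
    exact hH.2 p hp ((h p hp (hd.trans (index_dvd_card H))).2 rfl) hd
  · intro hH
    refine ⟨(pi_iff_pgroup hp h).2 hH.isPGroup, fun r hr hπ hd => ?_⟩
    have := (h r hr (hd.trans (index_dvd_card H))).1 hπ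
    subst this
    exact hH.not_dvd (by rwa [relIndex_top_right])

theorem cpi_of_all (h : ∀ r, r.Prime → r ∣ Nat.card Γ → r ∈ π) : IsCPiGroup π Γ := by
  refine ⟨⟨⊤, (hall_iff_top h).2 rfl⟩, fun H K hH hK => ⟨1, ?_⟩⟩
  rw [(hall_iff_top h).1 hH, (hall_iff_top h).1 hK]
  exact (map_top_of_surjective _ (MulAut.conj (1 : Γ)).surjective).symm

theorem cpi_of_one {p : ℕ} (hp : p.Prime) (h : ∀ r, r.Prime → r ∣ Nat.card Γ → (r ∈ π ↔ r = p)) :
    IsCPiGroup π Γ := by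
  haveI := Fact.mk hp
  refine ⟨?_, fun H K hH hK => ?_⟩
  · obtain ⟨P, hP⟩ := exists_isSylowIn p (⊤ : Subgroup Γ)
    exact ⟨P, (hall_iff_sylow hp h).2 hP⟩
  · obtain ⟨g, -, hg⟩ := ((hall_iff_sylow hp h).1 hH).exists_conj_eq ((hall_iff_sylow hp h).1 hK)
    exact ⟨g, hg.symm⟩

end general

theorem cases3 (π : Set ℕ) (n : ℕ) : (Two π n ∧ ∃ t, t.Prime ∧ t ≤ n ∧ t ∉ π) ∨
    (∀ r, r.Prime → r ∣ n.factorial → r ∈ π) ∨
    ∃ p : ℕ, p.Prime ∧ ∀ r, r.Prime → r ∣ n.factorial → (r ∈ π ↔ r = p) := by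
  by_cases h1 : ∃ t, t.Prime ∧ t ≤ n ∧ t ∉ π
  · by_cases h2 : Two π n
    · exact Or.inl ⟨h2, h1⟩
    · refine Or.inr (Or.inr (exists_one_prime n.factorial_ne_zero fun r s hr hs hrπ hsπ hrd hsd => ?_))
      by_contra hne
      exact h2 ⟨r, s, hr, hs, hne, hrπ, hsπ, hr.dvd_factorial.1 hrd, hs.dvd_factorial.1 hsd⟩
  · refine Or.inr (Or.inl fun r hr hd => ?_)
    by_contra hπ
    exact h1 ⟨r, hr, hr.dvd_factorial.1 hd, hπ⟩

theorem card_dvd_fact (G : Subgroup (Perm Ω)) : Nat.card G ∣ (Fintype.card Ω).factorial := by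
  rw [← Nat.card_eq_fintype_card, ← Nat.card_perm]
  exact card_subgroup_dvd_card G

theorem epi_sub_iff {G : Subgroup (Perm Ω)} : IsEPiGroup π G ↔ ∃ H, IsPiHallOf π H G :=
  ⟨fun ⟨_, hH⟩ => ⟨_, isPiHallOf_map_subtype.2 hH⟩,
    fun ⟨_, hH⟩ => ⟨_, (isPiHallOf_iff_subgroupOf hH.1).1 hH⟩⟩

theorem epi_top_iff : IsEPiGroup π (Perm Ω) ↔ ∃ H, IsPiHallOf π H (⊤ : Subgroup (Perm Ω)) :=
  ⟨fun ⟨_, hH⟩ => ⟨_, isPiHallOf_top.2 hH⟩, fun ⟨_, hH⟩ => ⟨_, isPiHallOf_top.1 hH⟩⟩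

end Cfsg.Agent.H6.HS
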