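import Cfsg.Agent.H6.Prim
import Cfsg.Agent.H5.Cover
import Cfsg.Agent.H8.TI1
import Cfsg.Agent.H2.Prim
import Cfsg.Agent.H26.SylCount

/-! Solvable linear groups with a non-normal Sylow subgroup (Isaacs, Winter, Itô). -/

namespace Cfsg.Agent.H6

open Cfsg.Agent.H4 Cfsg.Agent.H5 Cfsg.Agent.H1
open scoped commutatorElement Pointwise

universe u

/-- The `p`-elements are closed under multiplication. -/
def PClosed (p : ℕ) (G : Type*) [Group G] : Prop :=
  ∀ a b : G, (∃ k, a ^ p ^ k = 1) → (∃ k, b ^ p ^ k = 1) → ∃ k, (a * b) ^ p ^ k = 1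

/-- `n` has a prime power divisor congruent to `-1`, `0` or `1` modulo `p`. -/
def GoodDeg (p n : ℕ) : Prop :=
  ∃ q : ℕ, IsPrimePow q ∧ q ∣ n ∧
    ((q : ℤ) ≡ -1 [ZMOD p] ∨ (q : ℤ) ≡ 0 [ZMOD p] ∨ (q : ℤ) ≡ 1 [ZMOD p])

theorem GoodDeg.of_dvd {p m n : ℕ} (h : GoodDeg p m) (hd : m ∣ n) : GoodDeg p n := by
  obtain ⟨q, h1, h2, h3⟩ := h
  exact ⟨q, h1, h2.trans hd, h3⟩

theorem goodDeg_of_dvd {p n : ℕ} (hp : p.Prime) (h : p ∣ n) : GoodDeg p n :=
  ⟨p, hp.isPrimePow, h, Or.inr (Or.inl (Int.modEq_zero_iff_dvd.2 dvd_rfl))⟩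

variable {G : Type*} [Group G] {p : ℕ} [hp : Fact p.Prime]

theorem mem_of_pElem_of_normal [Finite G] (P : Sylow p G) {N : Subgroup G} [hN : N.Normal]
    (h : (P : Subgroup G) ≤ N) {a : G} (ha : ∃ k, a ^ p ^ k = 1) : a ∈ N := by
  have h1 : IsPGroup p (Subgroup.zpowers a) := by
    obtain ⟨k, hk⟩ := ha
    rintro ⟨_, j, rfl⟩
    refine ⟨k, Subtype.ext ?_⟩
    change (a ^ j) ^ p ^ k = 1
    rw [← zpow_natCast, ← zpow_mul, mul_comm, zpow_mul, zpow_natCast, hk, one_zpow]
  obtain ⟨g, -, hg⟩ := (isSylowIn_top P).exists_le_conj le_top h1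
  have h2 := hN.conj_mem _ (h (mem_conj_smul.1 (hg (Subgroup.mem_zpowers a)))) g
  simpa [mul_assoc] using h2

theorem pClosed_of_normal [Finite G] (P : Sylow p G) (h : (P : Subgroup G).Normal) : PClosed p G := by
  intro a b ha hb
  obtain ⟨k, hk⟩ := P.isPGroup' ⟨_, (P : Subgroup G).mul_mem (mem_of_pElem_of_normal P le_rfl ha)
    (mem_of_pElem_of_normal P le_rfl hb)⟩
  exact ⟨k, congrArg Subtype.val hk⟩

omit hp in
theorem normal_of_pClosed (P : Sylow p G) (h : PClosed p G) : (P : Subgroup G).Normal := by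
  let D : Subgroup G :=
    { carrier := {a | ∃ k, a ^ p ^ k = 1}
      one_mem' := ⟨0, by simp⟩
      mul_mem' := fun ha hb => h _ _ ha hb
      inv_mem' := fun ⟨k, hk⟩ => ⟨k, by rw [inv_pow, hk, inv_one]⟩ }
  have h1 : IsPGroup p D := fun ⟨a, k, hk⟩ => ⟨k, Subtype.ext hk⟩
  have h2 : D = P := P.is_maximal' h1 fun a ha => by
    obtain ⟨k, hk⟩ := P.isPGroup' ⟨a, ha⟩
    exact ⟨k, congrArg Subtype.val hk⟩
  rw [← h2]
  exact ⟨fun a ⟨k, hk⟩ g => ⟨k, by rw [conj_pow, hk]; simp⟩⟩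

omit hp in
theorem pClosed_of_forall_constituent [Fintype G] {χ : G → ℂ} (hχ : IsCharacter G χ)
    (hk : charKer χ = ⊥) (h : ∀ ψ (hψ : IsIrrCharacter G ψ), classInner χ ψ ≠ 0 →
      haveI := hψ.isCharacter.charKer_normal; PClosed p (G ⧸ charKer ψ)) : PClosed p G := by
  intro a b ⟨i, ha⟩ ⟨j, hb⟩
  have h1 : ∀ ψ : IrrCharacter G, ∃ k, classInner χ ψ ≠ 0 → (a * b) ^ p ^ k ∈ charKer (ψ : G → ℂ) := by
    intro ψ
    by_cases hne : classInner χ ψ = 0
    · exact ⟨0, fun h => absurd hne h⟩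
    haveI := ψ.2.isCharacter.charKer_normal
    obtain ⟨k, hk⟩ := h ψ ψ.2 hne (a : G ⧸ _) (b : G ⧸ _)
      ⟨i, by rw [← QuotientGroup.mk_pow, ha, QuotientGroup.mk_one]⟩
      ⟨j, by rw [← QuotientGroup.mk_pow, hb, QuotientGroup.mk_one]⟩
    exact ⟨k, fun _ => (QuotientGroup.eq_one_iff _).1 hk⟩
  choose k hk' using h1
  refine ⟨Finset.univ.sup k, ?_⟩
  rw [← Subgroup.mem_bot, ← hk]
  refine hχ.mem_charKer_of_forall_constituent fun ψ hψ hne => apply_of_mem_charKer ?_
  obtain ⟨c, hc⟩ := Nat.exists_eq_add_of_le (Finset.le_sup (f := k) (Finset.mem_univ ⟨ψ, hψ⟩))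
  rw [hc, pow_add, pow_mul]
  exact pow_mem (hk' ⟨ψ, hψ⟩ hne) _

theorem pClosed_of_normal_sub [Finite G] (P : Sylow p G) {N : Subgroup G} [N.Normal]
    (h : (P : Subgroup G) ≤ N) (hN : PClosed p N) : PClosed p G := by
  intro a b ⟨i, ha⟩ ⟨j, hb⟩
  obtain ⟨k, hk⟩ := hN ⟨a, mem_of_pElem_of_normal P h ⟨i, ha⟩⟩ ⟨b, mem_of_pElem_of_normal P h ⟨j, hb⟩⟩
    ⟨i, Subtype.ext ha⟩ ⟨j, Subtype.ext hb⟩
  exact ⟨k, congrArg Subtype.val hk⟩

theorem goodDeg_relIndex [Finite G] {P V : Subgroup G} (hP : IsPGroup p P)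
    (hn : P ≤ Subgroup.normalizer (V : Set G)) {r : ℕ} [hr : Fact r.Prime] (hV : IsPGroup r V)
    (hrp : r ≠ p) (hc : ¬ V ≤ Subgroup.centralizer (P : Set G)) :
    ∃ j, j ≠ 0 ∧ (Subgroup.centralizer (P : Set G)).relIndex V = r ^ j ∧ r ^ j ≡ 1 [MOD p] := by
  obtain ⟨a, ha⟩ := IsPGroup.iff_card.1 hV
  obtain ⟨j, -, hj⟩ := (Nat.dvd_prime_pow hr.out).1
    (ha ▸ Subgroup.relIndex_dvd_card (Subgroup.centralizer (P : Set G)) V)
  refine ⟨j, ?_, hj, hj ▸ H26.relIndex_centralizer_modEq_one hP hn ?_⟩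
  · rintro rfl
    exact hc (Subgroup.relIndex_eq_one.1 (by simpa using hj))
  · rw [ha]
    exact fun h => hrp ((Nat.prime_dvd_prime_iff_eq hp.out hr.out).1 (hp.out.dvd_of_dvd_pow h)).symm

theorem goodDeg_index_of_core [Finite G] (hG : Group.IsSolvable G) {H P : Subgroup G}
    (hH : IsCoatom H) (hc : H.normalCore = ⊥) (hP : IsPGroup p P) (h0 : P ≠ ⊥) :
    GoodDeg p H.index := by
  haveI : Nontrivial G := by
    by_contra h
    rw [not_nontrivial_iff_subsingleton] at h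
    exact h0 (Subsingleton.elim _ _)
  obtain ⟨r, hr, hV⟩ := exists_pCore_ne_bot hG
  haveI : Fact r.Prime := ⟨hr⟩
  set V := pCore r G
  have hVr : IsPGroup r V := isPGroup_pCore r G
  haveI := H2.isMulCommutative_of_core hH hc (N := V) hVr.isNilpotent
  have h1 := card_sup_of_disjoint (N := V) (H := H) Subgroup.le_normalizer_of_normal
    (H2.inf_eq_bot_of_core hH hc hV)
  rw [H2.sup_eq_top_of_core hH hc hV, Subgroup.card_top, ← H.card_mul_index, mul_comm] at h1
  have h2 : H.index = Nat.card V := Nat.eq_of_mul_eq_mul_right Nat.card_pos h1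
  rw [h2]
  by_cases hrp : r = p
  · subst hrp
    obtain ⟨a, ha⟩ := IsPGroup.iff_card.1 hVr
    refine goodDeg_of_dvd hr (ha ▸ dvd_pow_self _ ?_)
    rintro rfl
    exact hV (Subgroup.card_eq_one.1 (by simpa using ha))
  obtain ⟨j, hj0, hj, hj1⟩ := goodDeg_relIndex hP Subgroup.le_normalizer_of_normal hVr hrp (by
    intro hle
    have h3 : P ≤ V := H2.centralizer_eq_of_core hH hc hV ▸ Subgroup.le_centralizer_iff.1 hle
    exact h0 (disjoint_self.1 (Disjoint.mono_right h3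
      (IsPGroup.disjoint_of_ne p r (Ne.symm hrp) _ _ hP hVr))))
  refine ⟨r ^ j, hr.isPrimePow.pow hj0, hj ▸ Subgroup.relIndex_dvd_card _ _, Or.inr (Or.inr ?_)⟩
  exact_mod_cast (Int.natCast_modEq_iff.2 hj1)

theorem goodDeg_index [Finite G] (hG : Group.IsSolvable G) {H P : Subgroup G}
    (hH : IsCoatom H) (hP : IsPGroup p P) (h0 : ¬ P ≤ H.normalCore) : GoodDeg p H.index := by
  let π := QuotientGroup.mk' H.normalCore
  have hπ : Function.Surjective π := QuotientGroup.mk'_surjective _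
  have hk : π.ker ≤ H := by rw [QuotientGroup.ker_mk']; exact H.normalCore_le
  have hcm : (H.map π).comap π = H := Subgroup.comap_map_eq_self hk
  rw [← Subgroup.index_map_eq H hπ hk]
  refine goodDeg_index_of_core inferInstance ?_ ?_ (hP.map π) ?_
  · refine ⟨fun h => hH.1 (by rw [← hcm, h, Subgroup.comap_top]), fun K hK => ?_⟩
    have := hH.2 (K.comap π) (by
      exact hcm.symm.trans_lt ((Subgroup.comap_lt_comap_of_surjective hπ).2 hK))
    rw [← Subgroup.map_comap_eq_self_of_surjective hπ K, this, Subgroup.map_top_of_surjective _ hπ]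
  · rw [eq_bot_iff]
    intro x hx
    obtain ⟨x, rfl⟩ := hπ x
    refine (QuotientGroup.eq_one_iff x).2 fun g => ?_
    rw [← hcm]
    simpa using hx (π g)
  · rw [Ne, Subgroup.map_eq_bot_iff, QuotientGroup.ker_mk']; exact h0

omit hp in
theorem exists_degree_sq_eq_relIndex [Finite G] {χ : G → ℂ} (hχ : IsIrrCharacter G χ)
    (hk : charKer χ = ⊥) (X : Subgroup G) [Fintype X] (hX : ⁅X, X⁆ ≤ Subgroup.center G) :
    ∃ ψ, IsIrrCharacter X ψ ∧ classInner (fun x : X => χ x) ψ ≠ 0 ∧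
      charDegree ψ ^ 2 = (Subgroup.centralizer (X : Set G)).relIndex X := by
  obtain ⟨ψ, hψ, hne⟩ := exists_irr_under X hχ
  refine ⟨ψ, hψ, hne, ?_⟩
  have h1 : ∀ z : X, (z : G) ∈ Subgroup.center G → ψ z = ψ 1 → z = 1 := by
    intro z hz e
    by_contra hz1
    apply hne
    have h3 : χ z / χ 1 ≠ 1 := fun h => hz1 (Subtype.ext (by
      have := hχ.isCharacter.mem_charKer.2 ((div_eq_one_iff_eq hχ.apply_one_ne_zero).1 h)
      rwa [hk] at this))
    have h4 : classInner (fun x : X => χ x) ψ = χ z / χ 1 * classInner (fun x : X => χ x) ψ := by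
      rw [← classInner_smul_left]
      refine (classInner_comp_equiv (fun x : X => χ x) ψ (Equiv.mulLeft z)).symm.trans ?_
      congr 1
      · funext x
        exact apply_mul_of_mem_charCenter (hχ.center_le_charCenter hz) hχ.apply_one_ne_zero x
      · funext x
        exact apply_mul_of_mem_charKer (hψ.isCharacter.mem_charKer.2 e) x
    by_contra h5
    exact h3 (mul_right_cancel₀ h5 (h4.symm.trans (one_mul _).symm))
  rw [H8.degree_sq_eq_index_charCenter hψ fun a b => hψ.center_le_charCenter ?_]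
  · congr 1
    ext z
    rw [Subgroup.mem_subgroupOf, Subgroup.mem_centralizer_iff]
    constructor
    · intro hz x hx
      have h2 := h1 _ (hX (Subgroup.commutator_mem_commutator z.2 hx))
        (apply_of_mem_charKer (hψ.isCharacter.commutator_mem_charKer hz ⟨x, hx⟩))
      exact (commutatorElement_eq_one_iff_mul_comm.1 (congrArg Subtype.val h2)).symm
    · intro hz
      exact hψ.center_le_charCenter (Subgroup.mem_center_iff.2 fun x => Subtype.ext (hz x x.2))
  · exact Subgroup.mem_center_iff.2 fun x => Subtype.ext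
      (Subgroup.mem_center_iff.1 (hX (Subgroup.commutator_mem_commutator a.2 b.2)) x)

theorem goodDeg_of_prim [Fintype G] (hG : Group.IsSolvable G) {χ : G → ℂ} (hχ : IsIrrCharacter G χ)
    (hk : charKer χ = ⊥) (hprim : IsPrim χ) (P : Sylow p G)
    (hP : ∀ N : Subgroup G, N.Normal → (P : Subgroup G) ≤ N → N = ⊤)
    (hZ : Subgroup.center G ≠ ⊤) : GoodDeg p (charDegree χ) := by
  classical
  obtain ⟨N, ⟨hN, hNZ⟩, hmin⟩ := (wellFounded_lt (α := Subgroup G)).has_min
    {N : Subgroup G | N.Normal ∧ ¬ N ≤ Subgroup.center G}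
    ⟨⊤, inferInstance, fun h => hZ (eq_top_iff.2 h)⟩
  have hmin' : ∀ M : Subgroup G, M.Normal → M < N → M ≤ Subgroup.center G := fun M h1 h2 => by
    by_contra h3; exact hmin M ⟨h1, h3⟩ h2
  have hN0 : N ≠ ⊥ := by rintro rfl; exact hNZ bot_le
  have h1 : ⁅N, N⁆ ≤ Subgroup.center G :=
    hmin' _ inferInstance (commutator_lt_of_isSolvable inferInstance hN0)
  have hab : ∀ A : Subgroup G, A.Normal → ⁅A, A⁆ = ⊥ → A ≤ Subgroup.center G := fun A _ hA =>
    hχ.charCenter_eq_center hk ▸ hprim.le_charCenter hχ A (hA ▸ bot_le)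
  obtain ⟨r, hr, hNr⟩ : ∃ r : ℕ, r.Prime ∧ IsPGroup r N := by
    by_contra! hc
    refine hNZ (le_center_of_forall_normal_pSub inferInstance fun r hr R hR hRN hRr => ?_)
    exact hmin' R hR (lt_of_le_of_ne hRN fun e => hc r hr (e ▸ hRr))
  haveI : Fact r.Prime := ⟨hr⟩
  obtain ⟨θ, hθ, hθχ, hθd⟩ := exists_degree_sq_eq_relIndex hχ hk N h1
  have hdvd : charDegree θ ∣ charDegree χ := by
    obtain ⟨e, -, he⟩ := (NEmb.ofNormal N).degree_dvd_index hθ hχ hθχ
    refine Dvd.intro_left e ?_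
    rw [← hχ.isCharacter.charDegree_cast, ← hθ.isCharacter.charDegree_cast] at he
    exact_mod_cast he.symm
  refine GoodDeg.of_dvd ?_ hdvd
  obtain ⟨m, hm⟩ := IsPGroup.iff_card.1 hNr
  obtain ⟨a, -, ha⟩ := (Nat.dvd_prime_pow hr).1 (hm ▸ hθ.charDegree_dvd_card)
  have hNc : ¬ N ≤ Subgroup.centralizer (N : Set G) := fun h =>
    hNZ (hab N hN (Subgroup.commutator_eq_bot_iff_le_centralizer.2 h))
  by_cases hrp : r = p
  · subst hrp
    refine goodDeg_of_dvd hr (ha ▸ dvd_pow_self _ ?_)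
    rintro rfl
    rw [ha] at hθd
    exact hNc (Subgroup.relIndex_eq_one.1 (by simpa using hθd.symm))
  have hPN : (P : Subgroup G) ≤ Subgroup.normalizer (N : Set G) := Subgroup.le_normalizer_of_normal
  obtain ⟨j, hj0, hj, hj1⟩ := goodDeg_relIndex P.isPGroup' hPN hNr hrp (fun h => hNZ (by
    have := hP _ inferInstance (Subgroup.le_centralizer_iff.1 h)
    intro x hx
    rw [Subgroup.mem_center_iff]
    exact fun g => ((this ▸ Subgroup.mem_top g : g ∈ Subgroup.centralizer (N : Set G)) x hx).symm))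
  set C := N ⊓ Subgroup.centralizer ((P : Subgroup G) : Set G) with hC
  obtain ⟨ψ, hψ, -, hψd⟩ := exists_degree_sq_eq_relIndex hχ hk C
    ((Subgroup.commutator_mono inf_le_left inf_le_left).trans h1)
  set Z := N ⊓ Subgroup.centralizer (N : Set G) with hZ
  have hZc : Z ≤ Subgroup.center G := hab Z inferInstance
    (Subgroup.commutator_eq_bot_iff_le_centralizer.2
      (inf_le_right.trans (Subgroup.centralizer_le inf_le_left)))
  have hZC : Z ≤ C := le_inf inf_le_left (hZc.trans (Subgroup.center_le_centralizer _))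
  have h2 : C ⊓ Subgroup.centralizer (C : Set G) = Z := by
    refine le_antisymm (le_inf (inf_le_left.trans inf_le_left) ?_)
      (le_inf hZC (hZc.trans (Subgroup.center_le_centralizer _)))
    have hcop : (Nat.card (P : Subgroup G)).Coprime (Nat.card N) :=
      IsPGroup.coprime_card_of_ne p r (Ne.symm hrp) _ _ P.isPGroup' hNr
    have h3 := commutator_sup_centralizer hPN hcop (Or.inr inferInstance)
    rw [Subgroup.le_centralizer_iff]
    conv_lhs => rw [← h3]
    refine sup_le ?_ (Subgroup.le_centralizer_iff.1 inf_le_right)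
    refine le_trans ?_ (Subgroup.centralizer_le (SetLike.coe_subset_coe.2 inf_le_left))
    rw [← Subgroup.commutator_eq_bot_iff_le_centralizer]
    refine Subgroup.commutator_commutator_eq_bot_of_rotate ?_ ?_
    · rw [Subgroup.commutator_eq_bot_iff_le_centralizer.2
        (Subgroup.le_centralizer_iff.1 inf_le_right), Subgroup.commutator_bot_left]
    · exact Subgroup.commutator_eq_bot_iff_le_centralizer.2
        (((Subgroup.commutator_mono inf_le_left le_rfl).trans h1).trans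
          (Subgroup.center_le_centralizer _))
  have h3 := Subgroup.relIndex_mul_relIndex Z C N hZC inf_le_left
  rw [← Subgroup.inf_relIndex_right, inf_comm, h2] at hψd
  rw [← Subgroup.inf_relIndex_right, inf_comm] at hθd hj
  rw [← hψd, hj, ← hθd, ha] at h3
  obtain ⟨m', hm'⟩ := IsPGroup.iff_card.1 (hNr.to_le (inf_le_left : C ≤ N))
  obtain ⟨b, -, hb⟩ := (Nat.dvd_prime_pow hr).1 (hm' ▸ hψ.charDegree_dvd_card)
  rw [hb, ← pow_mul, ← pow_mul, ← pow_add] at h3
  have h4 := Nat.pow_right_injective hr.two_le h3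
  refine ⟨r ^ (a - b), hr.isPrimePow.pow (by omega), ha ▸ pow_dvd_pow r (by omega), ?_⟩
  have h5 : (p : ℤ) ∣ ((r ^ (a - b) : ℕ) - 1) * ((r ^ (a - b) : ℕ) + 1) := by
    have h6 := (Int.natCast_modEq_iff.2 hj1).symm.dvd
    rw [show j = (a - b) * 2 by omega, pow_mul] at h6
    convert h6 using 1; push_cast; ring
  rcases (Nat.prime_iff_prime_int.1 hp.out).dvd_or_dvd h5 with h | h
  · exact Or.inr (Or.inr (Int.modEq_iff_dvd.2 h).symm)
  · exact Or.inl (Int.modEq_iff_dvd.2 (by simpa using h)).symm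

theorem goodDeg_aux (m : ℕ) : ∀ (G : Type u) [Group G] [Finite G], Nat.card G = m →
    Group.IsSolvable G → ∀ χ : G → ℂ, IsIrrCharacter G χ → charKer χ = ⊥ → ¬ PClosed p G →
    GoodDeg p (charDegree χ) := by
  induction m using Nat.strong_induction_on with
  | _ m ih =>
  intro G _ _ hm hG χ hχ hk hP
  classical
  haveI := Fintype.ofFinite G
  by_contra hcon
  obtain ⟨P⟩ := (inferInstance : Nonempty (Sylow p G))
  have h1 : ∀ N : Subgroup G, N.Normal → (P : Subgroup G) ≤ N → N = ⊤ := by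
    intro N _ hPN
    by_contra hN
    refine hP (pClosed_of_normal_sub P hPN (pClosed_of_forall_constituent
      (hχ.isCharacter.restrict N) ?_ fun ψ hψ hne => ?_))
    · rw [eq_bot_iff]
      intro x hx
      have := hχ.isCharacter.mem_charKer.2 (apply_of_mem_charKer hx :)
      rw [hk] at this
      exact Subtype.ext this
    · haveI := hψ.isCharacter.charKer_normal
      by_contra h2
      have h3 := ih _ (lt_of_le_of_lt (Nat.le_of_dvd Nat.card_pos
        (Subgroup.card_quotient_dvd_card (charKer ψ))) (hm ▸ card_lt_of_ne_top hN)) (N ⧸ charKer ψ) rfl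
        inferInstance _ (hψ.deflate le_rfl) (charKer_deflate_charKer hψ.isClassFunction) h2
      rw [charDegree_eq_of (d := charDegree ψ)
        ((deflate_mk le_rfl 1).trans hψ.isCharacter.charDegree_cast.symm)] at h3
      obtain ⟨e, -, he⟩ := (NEmb.ofNormal N).degree_dvd_index hψ hχ hne
      refine hcon (h3.of_dvd (Dvd.intro_left e ?_))
      rw [← hχ.isCharacter.charDegree_cast, ← hψ.isCharacter.charDegree_cast] at he
      exact_mod_cast he.symm
  by_cases hprim : IsPrim χ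
  · refine hcon (goodDeg_of_prim hG hχ hk hprim P h1 fun hZ => hP (pClosed_of_normal P ?_))
    exact ⟨fun a ha g => by
      rw [Subgroup.mem_center_iff.1 (hZ ▸ Subgroup.mem_top a) g, mul_inv_cancel_right]; exact ha⟩
  · unfold IsPrim at hprim
    push Not at hprim
    obtain ⟨T, ψ, hψ, he, hT⟩ := hprim
    obtain ⟨H, hH, hTH⟩ := (eq_top_or_exists_le_coatom T).resolve_left hT
    refine hcon ((goodDeg_index hG hH P.isPGroup' fun h => hH.1 (eq_top_iff.2
      (h1 _ inferInstance h ▸ H.normalCore_le))).of_dvd ((Subgroup.index_dvd_of_le hTH).trans ?_))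
    refine Dvd.intro (charDegree ψ) ?_
    have := indFun_one T ψ
    rw [he, ← hχ.isCharacter.charDegree_cast, ← hψ.isCharacter.charDegree_cast] at this
    exact_mod_cast this.symm

/-- A solvable irreducible linear group with a non-normal Sylow `p`-subgroup. -/
theorem goodDeg_of_solvable [Finite G] (hG : Group.IsSolvable G) {χ : G → ℂ}
    (hχ : IsIrrCharacter G χ) (hk : charKer χ = ⊥) (hP : ¬ PClosed p G) :
    GoodDeg p (charDegree χ) := goodDeg_aux _ G rfl hG χ hχ hk hP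

theorem exists_goodDeg_of_solvable [Fintype G] (hG : Group.IsSolvable G) {χ : G → ℂ}
    (hχ : IsCharacter G χ) (hk : charKer χ = ⊥) (hP : ¬ PClosed p G) :
    ∃ ψ, IsIrrCharacter G ψ ∧ classInner χ ψ ≠ 0 ∧ GoodDeg p (charDegree ψ) := by
  by_contra! hc
  refine hP (pClosed_of_forall_constituent hχ hk fun ψ hψ hne => ?_)
  haveI := hψ.isCharacter.charKer_normal
  by_contra h2
  have h3 := goodDeg_of_solvable inferInstance (hψ.deflate le_rfl)
    (charKer_deflate_charKer hψ.isClassFunction) h2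
  rw [charDegree_eq_of (d := charDegree ψ)
    ((deflate_mk le_rfl 1).trans hψ.isCharacter.charDegree_cast.symm)] at h3
  exact hc ψ hψ hne h3

theorem GoodDeg.eq_of_le {n : ℕ} (h : GoodDeg p n) (h0 : 0 < n) (hn : n + 1 ≤ p) :
    n + 1 = p ∧ ∃ k, n = 2 ^ k := by
  obtain ⟨q, hq, hqn, h⟩ := h
  have h1 := hq.one_lt
  have h2 := Nat.le_of_dvd h0 hqn
  have h3 : q + 1 = p := by
    rcases h with h | h | h
    · have h4 : (p : ℤ) ∣ (q + 1 : ℕ) := by simpa using h.symm.dvd
      have := Nat.le_of_dvd (by omega) (Int.natCast_dvd_natCast.1 h4)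
      omega
    · have := Nat.le_of_dvd (by omega) (Int.natCast_dvd_natCast.1 (Int.modEq_zero_iff_dvd.1 h))
      omega
    · have h4 : (p : ℤ) ∣ (q - 1 : ℕ) := by
        rw [Nat.cast_sub h1.le]; exact h.symm.dvd
      have := Nat.le_of_dvd (by omega) (Int.natCast_dvd_natCast.1 h4)
      omega
  obtain rfl : q = n := by omega
  refine ⟨h3, ?_⟩
  obtain ⟨s, k, hs, -, rfl⟩ := (isPrimePow_nat_iff _).1 hq
  have h4 : 2 ∣ s ^ k := by
    have := hp.out.odd_of_ne_two (by omega)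
    rw [← h3] at this
    exact even_iff_two_dvd.1 (Nat.odd_add_one.1 this |> Nat.not_odd_iff_even.1)
  rw [← (Nat.prime_dvd_prime_iff_eq Nat.prime_two hs).1 (Nat.prime_two.dvd_of_dvd_pow h4)]
  exact ⟨k, rfl⟩

/-- A `p`-group acting non-trivially on a `p'`-subgroup of a linear group. -/
theorem exists_goodDeg_of_coprime [Finite G] {χ : G → ℂ} (hχ : IsCharacter G χ)
    (hk : charKer χ = ⊥) {P K : Subgroup G} (hP : IsPGroup p P)
    (hn : P ≤ Subgroup.normalizer (K : Set G)) (hK : ¬ p ∣ Nat.card K)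
    (hc : ¬ K ≤ Subgroup.centralizer (P : Set G)) :
    ∃ (H : Subgroup G) (_ : Fintype H) (ψ : H → ℂ), IsIrrCharacter H ψ ∧
      classInner (fun h : H => χ h) ψ ≠ 0 ∧ GoodDeg p (charDegree ψ) := by
  classical
  have hcop := coprime_card_of_isPGroup hP hK
  obtain ⟨r, hr, R, hR, hPR, hRc⟩ : ∃ r : ℕ, r.Prime ∧ ∃ R : Subgroup G, IsSylowIn r R K ∧
      P ≤ Subgroup.normalizer (R : Set G) ∧ ¬ R ≤ Subgroup.centralizer (P : Set G) := by
    by_contra! h
    apply hc
    rw [← Subgroup.relIndex_eq_one]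
    refine Nat.eq_one_iff_not_exists_prime_dvd.2 fun r hr hd => ?_
    haveI : Fact r.Prime := ⟨hr⟩
    obtain ⟨R, hR, hPR⟩ := exists_invariant_isSylowIn r hn hcop (Or.inl (isSolvable_of_isPGroup hP))
    exact hR.not_dvd (hd.trans (Subgroup.relIndex_dvd_of_le_left K (h r hr R hR hPR)))
  haveI : Fact r.Prime := ⟨hr⟩
  haveI := Fintype.ofFinite (R ⊔ P : Subgroup G)
  refine ⟨R ⊔ P, inferInstance, exists_goodDeg_of_solvable (isSolvable_sup hPR
    (isSolvable_of_isPGroup hR.isPGroup) (isSolvable_of_isPGroup hP)) (hχ.restrict _) ?_ ?_⟩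
  · rw [eq_bot_iff]
    intro x hx
    have := hχ.mem_charKer.2 (apply_of_mem_charKer hx :)
    rw [hk] at this
    exact Subtype.ext this
  · intro h
    apply hRc
    intro x hx y hy
    obtain ⟨k, hk⟩ := hP ⟨y, hy⟩
    have h1 : y ^ p ^ k = 1 := congrArg Subtype.val hk
    obtain ⟨j, hj⟩ := h ⟨y⁻¹, Subgroup.mem_sup_right (P.inv_mem hy)⟩
      ⟨x⁻¹ * y * x, mul_mem (mul_mem (Subgroup.mem_sup_left (R.inv_mem hx))
        (Subgroup.mem_sup_right hy)) (Subgroup.mem_sup_left hx)⟩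
      ⟨k, Subtype.ext (by simp [h1])⟩ ⟨k, Subtype.ext (by
        change (x⁻¹ * y * x) ^ p ^ k = 1
        have := conj_pow (i := p ^ k) (a := x⁻¹) (b := y)
        rw [inv_inv] at this
        rw [this, h1]; simp)⟩
    have h2 : (y⁻¹ * (x⁻¹ * y * x)) ^ p ^ j = 1 := congrArg Subtype.val hj
    have h3 : y⁻¹ * (x⁻¹ * y * x) ∈ K := by
      have := R.mul_mem (conj_mem_of_le_normalizer' hPR hy (R.inv_mem hx)) hx
      exact hR.le (by simpa [mul_assoc] using this)
    have h4 : orderOf (y⁻¹ * (x⁻¹ * y * x)) = 1 := Nat.eq_one_of_dvd_coprimes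
      (Nat.Coprime.pow_left j ((Nat.Prime.coprime_iff_not_dvd hp.out).2 hK)) (orderOf_dvd_of_pow_eq_one h2)
      (K.orderOf_dvd_natCard h3)
    rw [orderOf_eq_one_iff, inv_mul_eq_one] at h4
    calc y * x = x * (x⁻¹ * y * x) := by group
      _ = x * y := by rw [← h4]

end Cfsg.Agent.H6
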