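import Cfsg.Agent.H6.TwoA
import Cfsg.Agent.H15.Tw5
import Cfsg.Agent.H14.GrpD
import Cfsg.Agent.H14.Cent

/-! Two-element generation of the tabulated Chevalley groups. -/

set_option autoImplicit false

namespace Cfsg.Agent.H6.Two

open Subgroup Cfsg.Lie Cfsg.Lie.ChevalleyDatum Cfsg.Agent.H14 Cfsg.Agent.H15

/-- one step of the closure of a list of roots -/
def stp (D : ChevalleyDatum) (ok : ℤ → Bool) (w : List ℕ) (S : List ℕ) (a : ℕ × ℕ × ℕ) : List ℕ :=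
  if a.1 ∈ S ∧ a.1 < D.nroots then
    if a.2.1 = a.1 then wrefl D w a.1 :: S else
      match (D.commTerms a.1 a.2.1)[a.2.2]? with
      | none => S
      | some c => if a.2.1 ∈ S ∧ a.2.1 < D.nroots ∧ a.2.1 ≠ D.neg a.1 ∧ ok c.2.1 ∧ (c.2.2.1 = 1 ∨ c.2.2.2 = 1) ∧
          ∀ d ∈ (D.commTerms a.1 a.2.1).eraseIdx a.2.2, d.1 ∈ S then c.1 :: S else S
  else S

/-- the list contains the fundamental roots and their negatives -/
def Done (D : ChevalleyDatum) (S : List ℕ) : Prop := ∀ i < D.rank, D.simple i ∈ S ∧ D.neg (D.simple i) ∈ S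

instance (D : ChevalleyDatum) (S : List ℕ) : Decidable (Done D S) := inferInstanceAs (Decidable (∀ i < _, _))

/-- the root elements of the two roots commute -/
def Cm (D : ChevalleyDatum) (r s : ℕ) : Prop := r < D.nroots ∧ s < D.nroots ∧ s ≠ D.neg r ∧ D.commTerms r s = []

instance (D : ChevalleyDatum) (r s : ℕ) : Decidable (Cm D r s) := inferInstanceAs (Decidable (_ ∧ _))

/-- the sum of the pairings -/
def pr (D : ChevalleyDatum) (C : List ℕ) (r : ℕ) : ℤ := (C.map fun c => D.pairing c r).sum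

variable {D : ChevalleyDatum} (G : Good D) {K : Type*} [Field K] {M : Subgroup (GL D.Idx K)}

local notation "𝐱" => xN (RG.toRG0 (Good.rg G K))

/-- a product of diagonal elements -/
noncomputable def hL (C : List ℕ) (t : K) : GL D.Idx K :=
  (C.map fun c => if h : c < D.nroots then (G.rg K).h ⟨c, h⟩ t else 1).prod

theorem hL_mem_H (C : List ℕ) {t : K} (ht : t ≠ 0) : hL G C t ∈ (G.rg K).H := by
  refine list_prod_mem fun g hg => ?_
  obtain ⟨c, -, rfl⟩ := List.mem_map.1 hg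
  split_ifs
  exacts [(G.rg K).h_mem_H _ ht, one_mem _]

theorem hL_conj {C : List ℕ} (hC : ∀ c ∈ C, c < D.nroots) {t : K} (ht : t ≠ 0) {r : ℕ} (hr : r < D.nroots) (u : K) :
    hL G C t * 𝐱 r u * (hL G C t)⁻¹ = 𝐱 r (t ^ pr D C r * u) := by
  lift r to Fin D.nroots using hr
  induction C with
  | nil => simp [hL, pr]
  | cons c C ih =>
    have h := hC c List.mem_cons_self
    have := (G.rg K).h_conj ⟨c, h⟩ r ht (t ^ pr D C r * u)
    rw [← G.pairing_eq, ← xN_val, ← ih fun c hc => hC c (List.mem_cons_of_mem _ hc), ← xN_val] at this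
    simp only [hL, pr, List.map_cons, List.prod_cons, List.sum_cons, dif_pos h] at this ⊢
    rw [zpow_add₀ ht, mul_assoc _ _ u, ← this]; group

theorem Cm.commute {r s : ℕ} (h : Cm D r s) (t u : K) : Commute (𝐱 r t) (𝐱 s u) := by
  by_cases e : s = r
  · subst e; exact show _ = _ by rw [← xN_add, ← xN_add, add_comm]
  have := chev_xN G h.1 h.2.1 e h.2.2.1 t u
  rw [commWord, h.2.2.2] at this
  exact show _ = _ by simpa using this.symm

theorem xN_neg (r : ℕ) (t : K) : 𝐱 r (-t) = (𝐱 r t)⁻¹ := by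
  unfold xN; split_ifs
  exacts [RG0.x_neg _ _ _, inv_one.symm]

theorem xN_zero (r : ℕ) : 𝐱 r 0 = 1 := by
  unfold xN; split_ifs <;> simp

theorem xN_mem (r : ℕ) (t : K) : 𝐱 r t ∈ D.group K := by
  unfold xN; split_ifs
  exacts [G.x_mem_group (F := K) _ _, one_mem _]

variable (M) in
/-- the whole root subgroup lies in `M` -/
def Full (r : ℕ) : Prop := ∀ t : K, 𝐱 r t ∈ M

variable (M) in
/-- a nontrivial root element lies in `M` -/
def Some (r : ℕ) : Prop := r < D.nroots ∧ ∃ t : K, t ≠ 0 ∧ 𝐱 r t ∈ M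

theorem hL_mem {C : List ℕ} (hC : ∀ c ∈ C, Full G M c ∧ Full G M (D.neg c)) (t : K) : hL G C t ∈ M := by
  refine list_prod_mem fun g hg => ?_
  obtain ⟨c, hc, rfl⟩ := List.mem_map.1 hg
  split_ifs with h
  · have a : ∀ u, (G.rg K).x ⟨c, h⟩ u ∈ M := fun u => by simpa [xN, h] using (hC c hc).1 u
    have b : ∀ u, (G.rg K).x (G.R.neg ⟨c, h⟩) u ∈ M := fun u => by rw [← xN_val, G.neg_eq]; exact (hC c hc).2 u
    exact mul_mem (mul_mem (mul_mem (a _) (b _)) (a _)) (mul_mem (mul_mem (a _) (b _)) (a _))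
  · exact one_mem _

theorem nw_conj (l : List (Fin D.rank)) {r : ℕ} (hr : r < D.nroots) : wrefl D (l.map Fin.val) r < D.nroots ∧ ∃ c : K, c ≠ 0 ∧
    ∀ t, (G.rg K).nw l * 𝐱 r t * ((G.rg K).nw l)⁻¹ = 𝐱 (wrefl D (l.map Fin.val) r) (c * t) := by
  lift r to Fin D.nroots using hr
  obtain ⟨c, hc⟩ := ((G.rg K).rep_nw l).conj_x r
  rw [← wp_val]
  exact ⟨Fin.is_lt _, c, c.ne_zero, by simpa using hc⟩

variable {G}

theorem Some.it {l : List (Fin D.rank)} (hw : (G.rg K).nw l ∈ M) {r : ℕ} (h : Some G M r) (k : ℕ) :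
    Some G M ((wrefl D (l.map Fin.val))^[k] r) := by
  induction k with
  | zero => exact h
  | succ k ih =>
    obtain ⟨h1, t, h2, h3⟩ := ih
    obtain ⟨h4, c, h5, h6⟩ := nw_conj (K := K) G l h1
    rw [Function.iterate_succ_apply']
    exact ⟨h4, _, mul_ne_zero h5 h2, h6 t ▸ cj hw h3⟩

/-- the powers of `μ` span the field additively -/
def Spn (μ : K) : Prop := ∀ P : K → Prop, P 0 → P 1 → (∀ a b, P a → P b → P (a + b)) → (∀ a, P a → P (μ * a)) → ∀ a, P a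

theorem Some.full {r : ℕ} (h : Some G M r) {g : GL D.Idx K} (hg : g ∈ M) {μ : K} (hμ : Spn μ)
    (e : ∀ t, g * 𝐱 r t * g⁻¹ = 𝐱 r (μ * t)) : Full G M r := fun u => by
  obtain ⟨-, t, h2, h3⟩ := h
  have := hμ (fun a => 𝐱 r (a * t) ∈ M) (by simp [xN_zero, one_mem]) (by simpa using h3)
    (fun a b ha hb => by simpa [add_mul, xN_add] using mul_mem ha hb) (fun a ha => by rw [mul_assoc, ← e]; exact cj hg ha) (u / t)
  simpa [h2] using this

theorem term_mem {r s n : ℕ} {c : ℕ × ℤ × ℕ × ℕ} (hn : (D.commTerms r s)[n]? = some c)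
    (h : ∀ d ∈ (D.commTerms r s).eraseIdx n, Full G M d.1) {t u : K} (hW : wordX (G.rg K).toRG0 (D.commWord K r s t u) ∈ M) :
    𝐱 c.1 ((c.2.1 : K) * (-t) ^ c.2.2.1 * u ^ c.2.2.2) ∈ M := by
  unfold commWord at hW
  generalize D.commTerms r s = L at hn h hW
  induction L generalizing n with
  | nil => simp at hn
  | cons d L ih =>
    rw [List.map_cons, wordX_cons] at hW
    cases n with
    | zero =>
      obtain rfl : d = c := by simpa using hn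
      refine (mul_mem_cancel_right (list_prod_mem fun g hg => ?_)).1 hW
      obtain ⟨p, hp, rfl⟩ := List.mem_map.1 hg
      obtain ⟨d, hd, rfl⟩ := List.mem_map.1 hp
      exact h d (by simpa using hd) _
    | succ n =>
      exact ih (by simpa using hn) (fun e he => h e (by simp [he])) ((mul_mem_cancel_left (h d (by simp) _)).1 hW)

theorem stp_full {ok : ℤ → Bool} (hok : ∀ z, ok z → (z : K) ≠ 0) {l : List (Fin D.rank)} (hw : (G.rg K).nw l ∈ M)
    (A : List (ℕ × ℕ × ℕ)) {S : List ℕ} (h : ∀ r ∈ S, Full G M r) : ∀ r ∈ A.foldl (stp D ok (l.map Fin.val)) S, Full G M r := by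
  induction A generalizing S with
  | nil => exact h
  | cons a A ih =>
    refine ih ?_
    unfold stp
    split_ifs with h1 h2
    · obtain ⟨-, c, h5, h6⟩ := nw_conj (K := K) G l h1.2
      refine List.forall_mem_cons.2 ⟨fun t => ?_, h⟩
      have := cj hw (h _ h1.1 (t / c))
      rwa [h6, mul_div_cancel₀ _ h5] at this
    · split
      · exact h
      rename_i c hc
      split_ifs with h3
      · obtain ⟨b1, b2, b3, b4, b5, b6⟩ := h3
        refine List.forall_mem_cons.2 ⟨fun v => ?_, h⟩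
        have key : ∀ t u : K, _ := fun t u => term_mem (G := G) (M := M) hc (fun d hd => h _ (b6 d hd)) (t := t) (u := u) (by
          have := mul_mem (h _ b1 u) (h _ h1.1 t)
          rwa [chev_xN G h1.2 b2 h2 b3, mul_mem_cancel_left (mul_mem (h _ h1.1 _) (h _ b1 _))] at this)
        have := hok _ b4
        rcases b5 with b5 | b5
        · simpa [b5, mul_div_cancel₀ _ this] using key (-(v / c.2.1)) 1
        · simpa [b5, mul_div_cancel₀ _ this] using key (-1) (v / c.2.1)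
      · exact h
    · exact h

theorem Done.le {S : List ℕ} (h : Done D S) (hS : ∀ r ∈ S, Full G M r) : D.group K ≤ M := by
  rw [G.grp_eq]
  exact (G.rg K).grp_le_of_pm (fun i t => by rw [xN_simple]; exact hS _ (h i i.2).1 t)
    fun i t => by rw [xN_neg_simple]; exact hS _ (h i i.2).2 t

theorem spn_of [Finite K] {ζ : Kˣ} (hζ : ∀ u, u ∈ zpowers ζ) {e : ℤ} (h : ζ ^ 2 ∈ zpowers (ζ ^ e)) : Spn ((ζ : K) ^ e) :=
  fun P h0 h1 ha hm => field_ind h0 h1 ha hζ fun a b => by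
    obtain ⟨k, hk⟩ := mem_powers_iff_mem_zpowers.2 h
    rw [← Units.val_pow_eq_pow_val, ← hk]
    clear hk
    induction k with
    | zero => simpa using b
    | succ k ih => simpa [pow_succ', mul_assoc] using hm _ ih

theorem spn12 [Finite K] {ζ : Kˣ} (hζ : ∀ u, u ∈ zpowers ζ) {e : ℤ} (h : e ∣ 2) : Spn ((ζ : K) ^ e) := by
  obtain ⟨k, hk⟩ := h
  exact spn_of hζ ⟨k, by simp only []; rw [← zpow_mul, ← hk]; rfl⟩

theorem spn3 [Finite K] (h3 : (3 : K) = 0) {ζ : Kˣ} (hζ : ∀ u, u ∈ zpowers ζ) {e : ℤ} (h : e ∣ 3) : Spn ((ζ : K) ^ e) := by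
  obtain ⟨k, hk⟩ := h
  haveI := Fintype.ofFinite K
  haveI : CharP K 3 := (CharP.charP_iff_prime_eq_zero Nat.prime_three).2 (by simpa using h3)
  obtain ⟨n, -, hn⟩ := FiniteField.card K 3
  have : ζ ^ 3 ^ (n : ℕ) = ζ := Units.ext (by rw [← hn]; simpa using FiniteField.pow_card (ζ : K))
  refine spn_of hζ ⟨k * (3 ^ (n - 1 : ℕ) * 2), ?_⟩
  simp only []
  rw [← zpow_mul, ← mul_assoc, ← hk, ← mul_assoc, ← pow_succ', Nat.sub_add_cancel (show 1 ≤ (n : ℕ) from n.2), zpow_mul]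
  rw [← Nat.cast_ofNat, ← Nat.cast_pow, zpow_natCast, this]; rfl

variable (G) in
theorem gen_core [Finite K] {l : List ℕ} (hl : ∀ i ∈ l, i < D.rank) {R : ℕ} (hR : R < D.nroots) {s : GL D.Idx K}
    (hs : s ∈ D.group K) (c : Commute (𝐱 R 1) s) {N : ℕ} (h1 : s ^ N = 1) (h2 : (N : K) ≠ 0)
    (h : ∀ M : Subgroup (GL D.Idx K), s ∈ M → (∀ k, Some G M ((wrefl D l)^[k] R)) → (∀ ok : ℤ → Bool, (∀ z, ok z → (z : K) ≠ 0) →
      ∀ (A : List (ℕ × ℕ × ℕ)) (S : List ℕ), (∀ r ∈ S, Full G M r) → ∀ r ∈ A.foldl (stp D ok l) S, Full G M r) → D.group K ≤ M) :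
    Gen2 (D.group K) := by
  lift l to List (Fin D.rank) using hl
  refine gen2_of (mul_mem (xN_mem G R 1) hs) (b := (G.rg K).nw l) (G.grp_eq K ▸ (G.rg K).N_le_grp ((G.rg K).nw_mem_N l))
    fun M a b => ?_
  obtain ⟨p, hp⟩ := CharP.exists K
  have hp' := CharP.char_is_prime K p
  have : ∀ n : ℕ, 𝐱 R 1 ^ n = 𝐱 R n := fun n => by
    induction n with
    | zero => simp [xN_zero]
    | succ n ih => rw [pow_succ, ih, ← xN_add, Nat.cast_succ]
  obtain ⟨a1, a2⟩ := split c (p := p) (by rw [this, CharP.cast_eq_zero, xN_zero]) h1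
    (((Nat.Prime.coprime_iff_not_dvd hp').2 fun e => h2 ((CharP.cast_eq_zero_iff K p N).2 e)).symm) a
  exact h M a2 (Some.it b ⟨hR, 1, one_ne_zero, a1⟩) fun ok hok A S => stp_full hok b A

theorem card_ne [Finite K] : ((Nat.card K - 1 : ℕ) : K) ≠ 0 := by
  haveI := Fintype.ofFinite K
  rw [Nat.cast_sub Nat.card_pos, Nat.card_eq_fintype_card, FiniteField.cast_card_eq_zero]
  simp

variable (G)
include G

theorem gen_G [Finite K] {ok : ℤ → Bool} (hok : ∀ z, ok z → (z : K) ≠ 0) (l : List ℕ) (R c k : ℕ) (A : List (ℕ × ℕ × ℕ))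
    (h : (∀ i ∈ l, i < D.rank) ∧ R < D.nroots ∧ (∀ a ∈ [c], a < D.nroots) ∧ pr D [c] R = 0 ∧ pr D [c] ((wrefl D l)^[k] R) ∣ 2 ∧
      Done D (A.foldl (stp D ok l) [(wrefl D l)^[k] R])) : Gen2 (D.group K) := by
  obtain ⟨h1, h2, h3, h4, h5, h6⟩ := h
  obtain ⟨ζ, hζ⟩ := IsCyclic.exists_generator (α := Kˣ)
  have m := hL_mem_H G [c] ζ.ne_zero
  refine gen_core G h1 h2 (G.grp_eq K ▸ (G.rg K).H_le_grp m) ?_ ((G.rg K).pow_card_sub_one G.hmul_rg m) card_ne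
    fun M a b d => h6.le (d ok hok A _ ?_)
  · have := hL_conj G h3 ζ.ne_zero h2 1
    rw [h4, zpow_zero, one_mul, mul_inv_eq_iff_eq_mul] at this
    exact this.symm
  · simpa using (b k).full a (spn12 hζ h5) (hL_conj G h3 ζ.ne_zero (b k).1)

theorem gen_L [Finite K] (hK : ∃ x : K, x ≠ 0 ∧ x ≠ 1) (l C : List ℕ) (R a k : ℕ) (A B : List (ℕ × ℕ × ℕ))
    (hsp : ∀ ζ : Kˣ, (∀ u, u ∈ zpowers ζ) → Spn ((ζ : K) ^ pr D C ((wrefl D l)^[k] R)))
    (h : (∀ i ∈ l, i < D.rank) ∧ (∀ c ∈ C, c < D.nroots) ∧ pr D C R = 0 ∧ Cm D R a ∧ Cm D ((wrefl D l)^[k] R) a ∧ pr D C a = 1 ∧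
      (∀ c ∈ C, c ∈ A.foldl (stp D (· ∣ 1) l) [(wrefl D l)^[k] R] ∧ D.neg c ∈ A.foldl (stp D (· ∣ 1) l) [(wrefl D l)^[k] R]) ∧
      Done D (B.foldl (stp D (· ∣ 1) l) (a :: A.foldl (stp D (· ∣ 1) l) [(wrefl D l)^[k] R]))) : Gen2 (D.group K) := by
  obtain ⟨h1, h3, h4, h5, h6, h7, h8, h9⟩ := h
  obtain ⟨ζ, hζ⟩ := IsCyclic.exists_generator (α := Kˣ)
  have hok : ∀ z : ℤ, decide (z ∣ 1) → (z : K) ≠ 0 := fun z hz => (isUnit_of_dvd_one (of_decide_eq_true hz)).map (Int.castRingHom K) |>.ne_zero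
  have m := hL_mem_H G C ζ.ne_zero
  have e : ∀ r, Cm D r a → ∀ t, 𝐱 a 1 * hL G C (ζ : K) * (𝐱 a 1)⁻¹ * 𝐱 r t * (𝐱 a 1 * hL G C (ζ : K) * (𝐱 a 1)⁻¹)⁻¹ = 𝐱 r (ζ ^ pr D C r * t) :=
    fun r hr t => by
    have b1 := hL_conj G h3 ζ.ne_zero hr.1 t
    have b2 := (hr.commute G t 1).symm.inv_mul_cancel
    have b3 := (hr.commute G (ζ ^ pr D C r * t) 1).symm.mul_inv_cancel
    rw [← b3, ← b1]
    conv_rhs => rw [← b2]
    group
  refine gen_core G h1 h5.1 (cj (xN_mem G a 1) (G.grp_eq K ▸ (G.rg K).H_le_grp m)) ?_ (N := Nat.card K - 1)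
    (by rw [conj_pow, (G.rg K).pow_card_sub_one G.hmul_rg m]; simp) card_ne fun M a1 b d => ?_
  · have := e R h5 1
    rw [h4, zpow_zero, one_mul, mul_inv_eq_iff_eq_mul] at this
    exact this.symm
  have f1 := d _ hok A [(wrefl D l)^[k] R] (by simpa using (b k).full a1 (hsp ζ hζ) (e _ h6))
  have f2 : hL G C (ζ : K) ∈ M := hL_mem G (fun c hc => ⟨f1 _ (h8 c hc).1, f1 _ (h8 c hc).2⟩) _
  have f3 := hL_conj G h3 ζ.ne_zero h5.2.1
  refine h9.le (d _ hok B _ (List.forall_mem_cons.2 ⟨Some.full ⟨h5.2.1, 1 + ζ * -1, fun h => ?_, ?_⟩ f2 (spn12 hζ (h7 ▸ one_dvd 2)) f3, f1⟩))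
  · obtain ⟨x, x0, x1⟩ := hK
    obtain ⟨n, hn⟩ := hζ (Units.mk0 x x0)
    have : ζ = 1 := Units.ext (by rw [Units.val_one]; linear_combination (exp := 1) -(h : (1 : K) + ζ * -1 = 0))
    exact x1 (by simpa [this] using congrArg Units.val hn.symm)
  · have := f3 (-1)
    rw [h7, zpow_one] at this
    rw [xN_add, ← this, xN_neg]
    simpa only [mul_assoc] using mul_mem a1 (inv_mem f2)

theorem gen_T [Finite K] (h2 : (2 : K) = 0) (l : List ℕ) (R c a k r n : ℕ) (A B : List (ℕ × ℕ × ℕ)) (d : ℕ × ℤ × ℕ × ℕ)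
    (h : (∀ i ∈ l, i < D.rank) ∧ (∀ b ∈ [c], b < D.nroots) ∧ pr D [c] R = 0 ∧ pr D [c] ((wrefl D l)^[k] R) ∣ 2 ∧
      pr D [c] a = 0 ∧ pr D [c] (D.neg a) = 0 ∧ Cm D R a ∧ Cm D R (D.neg a) ∧ Cm D ((wrefl D l)^[k] R) a ∧
      Cm D ((wrefl D l)^[k] R) (D.neg a) ∧ Cm D r (D.neg a) ∧ r ≠ a ∧ r ≠ D.neg a ∧ (D.commTerms a r)[n]? = some d ∧ d.2.1 ∣ 1 ∧ d.2.2.2 = 1 ∧
      r ∈ A.foldl (stp D (· ∣ 1) l) [(wrefl D l)^[k] R] ∧
      (∀ e ∈ (D.commTerms a r).eraseIdx n, e.1 ∈ A.foldl (stp D (· ∣ 1) l) [(wrefl D l)^[k] R]) ∧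
      Done D (B.foldl (stp D (· ∣ 1) l) (d.1 :: A.foldl (stp D (· ∣ 1) l) [(wrefl D l)^[k] R]))) : Gen2 (D.group K) := by
  obtain ⟨h1, h3, h4, h5, h6, h7, h8, h9, h10, h11, h12, h13, h14, h15, h16, h17, h18, h19, h20⟩ := h
  obtain ⟨ζ, hζ⟩ := IsCyclic.exists_generator (α := Kˣ)
  have hok : ∀ z : ℤ, decide (z ∣ 1) → (z : K) ≠ 0 := fun z hz => (isUnit_of_dvd_one (of_decide_eq_true hz)).map (Int.castRingHom K) |>.ne_zero
  have m := hL_mem_H G [c] ζ.ne_zero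
  have n1 : (-1 : K) = 1 := by linear_combination -h2
  have e0 : ∀ r, Cm D r (D.neg a) → ∀ t, 𝐱 a 1 * 𝐱 (D.neg a) 1 * hL G [c] (ζ : K) * 𝐱 r t * (𝐱 a 1 * 𝐱 (D.neg a) 1 * hL G [c] (ζ : K))⁻¹ =
      𝐱 a 1 * 𝐱 r (ζ ^ pr D [c] r * t) * (𝐱 a 1)⁻¹ := fun r hr t => by
    have b1 := hL_conj G h3 ζ.ne_zero hr.1 t
    have b3 := (hr.commute G (ζ ^ pr D [c] r * t) 1).symm.mul_inv_cancel
    rw [← b3, ← b1]; group
  have e : ∀ r, Cm D r a → Cm D r (D.neg a) → ∀ t, 𝐱 a 1 * 𝐱 (D.neg a) 1 * hL G [c] (ζ : K) * 𝐱 r t *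
      (𝐱 a 1 * 𝐱 (D.neg a) 1 * hL G [c] (ζ : K))⁻¹ = 𝐱 r (ζ ^ pr D [c] r * t) := fun r hr hr' t => by
    rw [e0 r hr', (hr.commute G _ 1).symm.mul_inv_cancel]
  have c1 : ∀ b < D.nroots, pr D [c] b = 0 → Commute (𝐱 b 1) (hL G [c] (ζ : K)) := fun b hb h => by
    have := hL_conj G h3 ζ.ne_zero hb 1
    rw [h, zpow_zero, one_mul, mul_inv_eq_iff_eq_mul] at this
    exact this.symm
  have y3 : (𝐱 a 1 * 𝐱 (D.neg a) 1) ^ 3 = 1 := by
    have ha := h8.2.1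
    lift a to Fin D.nroots using ha
    have b1 := (G.rg K).n_neg_root a one_ne_zero
    have b2 : ∀ b, (G.rg K).x b 1 * (G.rg K).x b 1 = 1 := fun b => by rw [← RG0.x_add, one_add_one_eq_two, h2, RG0.x_zero]
    simp only [RG0.n, inv_one, n1, RS.neg_neg] at b1
    rw [← G.neg_eq, xN_val, xN_val]
    calc _ = ((G.rg K).x a 1 * (G.rg K).x (G.R.neg a) 1 * (G.rg K).x a 1) * ((G.rg K).x (G.R.neg a) 1 * (G.rg K).x a 1 * (G.rg K).x (G.R.neg a) 1) := by
          simp only [pow_succ, pow_zero, one_mul, mul_assoc]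
      _ = 1 := by
          rw [b1]; simp only [mul_assoc]
          rw [← mul_assoc ((G.rg K).x a 1) ((G.rg K).x a 1), b2, one_mul, ← mul_assoc ((G.rg K).x (G.R.neg a) 1), b2, one_mul, b2]
  refine gen_core G h1 h8.1 (mul_mem (mul_mem (xN_mem G a 1) (xN_mem G (D.neg a) 1)) (G.grp_eq K ▸ (G.rg K).H_le_grp m)) ?_
    (N := 3 * (Nat.card K - 1)) ?_ ?_ fun M a1 b f => ?_
  · have := e R h8 h9 1
    rw [h4, zpow_zero, one_mul, mul_inv_eq_iff_eq_mul] at this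
    exact this.symm
  · rw [((c1 _ h8.2.1 h6).mul_left (c1 _ h9.2.1 h7)).mul_pow, pow_mul, y3, mul_comm 3, pow_mul, (G.rg K).pow_card_sub_one G.hmul_rg m]
    simp
  · rw [Nat.cast_mul]
    exact mul_ne_zero (fun h => one_ne_zero (α := K) (by push_cast at h; linear_combination h - h2)) card_ne
  have f1 := f _ hok A [(wrefl D l)^[k] R] (by simpa using (b k).full a1 (spn12 hζ h5) (e _ h10 h11))
  refine h20.le (f _ hok B _ (List.forall_mem_cons.2 ⟨fun v => ?_, f1⟩))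
  have key : ∀ u : K, _ := fun u => term_mem (G := G) (M := M) h15 (fun e he => f1 _ (h19 e he)) (t := -1) (u := u) (by
    have b1 := cj a1 (f1 _ h18 (u / ζ ^ pr D [c] r))
    rw [e0 r h12, mul_div_cancel₀ _ (zpow_ne_zero _ ζ.ne_zero), ← xN_neg, mul_assoc, chev_xN G h8.2.1 h12.1 h13 h14, xN_neg] at b1
    rwa [mul_assoc, mul_inv_cancel_left, mul_mem_cancel_left (f1 _ h18 _)] at b1)
  simpa [h17, mul_div_cancel₀ _ (hok _ (decide_eq_true h16))] using key (v / d.2.1)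

end Cfsg.Agent.H6.Two
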