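import Cfsg.Agent.H6.TwoT
import Cfsg.Agent.H15.TwD4
import Cfsg.Agent.H15.TwE6

/-! Two-element generation of the twisted groups of types `D₄` and `E₆`. -/

set_option autoImplicit false

namespace Cfsg.Agent.H6.Two

open Subgroup Cfsg.Lie Cfsg.Lie.ChevalleyDatum Cfsg.Agent.H14 Cfsg.Agent.H15

variable {K : Type*} [Field K] [Fintype K] {q : ℕ}

theorem gen_pow_ne {ζ : Kˣ} (hζ : ∀ u, u ∈ zpowers ζ) {m : ℕ} (h0 : m ≠ 0) (h : m + 1 < Fintype.card K) : (ζ : K) ^ m ≠ 1 := fun e =>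
  pow_ne_one_of_lt_orderOf h0 (by
    rw [orderOf_eq_card_of_forall_mem_zpowers hζ, Nat.card_units, Nat.card_eq_fintype_card]; omega) (Units.ext (by simpa using e))

theorem gen_frob {ζ : Kˣ} (hζ : ∀ u, u ∈ zpowers ζ) {e : ℕ} (hq : 2 ≤ q) (he : 2 ≤ e) (hK : Fintype.card K = q ^ e) :
    (ζ : K) ^ 2 ≠ 1 ∧ (ζ : K) ^ q ≠ ζ := by
  have : q ^ 2 ≤ q ^ e := Nat.pow_le_pow_right (by omega) he
  obtain ⟨k, rfl⟩ := Nat.exists_eq_add_of_le' hq
  exact ⟨gen_pow_ne hζ two_ne_zero (by nlinarith), fun h => gen_pow_ne hζ (m := k + 1) (by omega) (by nlinarith)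
    (mul_right_cancel₀ ζ.ne_zero (by rw [← pow_succ, one_mul]; exact h))⟩

section D4
local notation "𝐱" => xN (RG.toRG0 (Good.rg goodD4 K))

set_option backward.isDefEq.respectTransparency false in
theorem d4_two (hq : IsPrimePow q) (hK : Fintype.card K = q ^ 3) : Gen2 (twistedD4 K q) := by
  obtain ⟨S, h⟩ := exists_D4 hq hK
  rw [← h.T_eq]
  obtain ⟨ζ, hζ⟩ := IsCyclic.exists_generator (α := Kˣ)
  obtain ⟨σ, hσ⟩ := exists_frob hq three_ne_zero hK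
  have σ3 : ∀ t, σ (σ (σ t)) = t := fun t => by simpa only [h.g, hσ] using h.gg 0 0 0 t
  obtain ⟨z1, z2⟩ := gen_frob hζ h.hq (by norm_num) hK
  rw [← hσ] at z2
  have n0 := ζ.ne_zero
  have n1 : σ ζ ≠ 0 := by simp
  have n2 : σ (σ ζ) ≠ 0 := by simp
  have cm : ∀ p ∈ [(13, 18), (12, 18), (12, 13), (18, 20), (18, 21), (13, 17), (12, 17), (22, 13), (22, 12), (22, 20), (22, 21), (13, 21),
    (12, 20)], ∀ t u : K, Commute (𝐱 p.1 t) (𝐱 p.2 u) := fun p hp => Cm.commute _ (by revert p; decide +kernel)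
  simp only [List.forall_mem_cons] at cm
  obtain ⟨c1, c2, c3, c4, c5, c6, c7, c8, c9, c10, c11, c12, c13, -⟩ := cm
  have hφ : ∀ y, y ∈ S.XP 1 ↔ ∃ t, y = 𝐱 18 t * (𝐱 13 (σ t) * 𝐱 12 (σ (σ t))) := fun y => by
    simp only [hσ, ← pow_mul, ← pow_two]; exact h.XP1 y
  have hw : (goodD4.rg K).Rep (S.nJ 1 * S.nJ 0) (goodD4.R.wp ([0, 2, 3, 1] : List (Fin 4))) := by
    have := (S.rep_nJ 1).mul (S.rep_nJ 0)
    rwa [h.wJ_eq', h.wJ_eq', ← RS.wp_append] at this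
  have hn := mul_mem (S.nJ_mem_T 1) (S.nJ_mem_T 0)
  generalize S.nJ 1 * S.nJ 0 = n at hw hn
  let c : Fin 4 → Kˣ := ![ζ, 1, Units.map (σ : K →* K) ζ, Units.map (σ : K →* K) (Units.map (σ : K →* K) ζ)]
  have hh := (h.H_eq.ge ⟨c, h.mem_CFix.2 fun i => Units.ext (by fin_cases i <;> simp [c, τ4, ← hσ, σ3]), rfl⟩).2
  refine gen2_of' hh (mul_mem (S.XP_le 1 ((hφ _).2 ⟨1, rfl⟩)) (inv_mem hn)) fun M hM m1 m2 => ?_
  obtain ⟨a1, a2⟩ := stb' (φ := fun t => 𝐱 18 t * (𝐱 13 (σ t) * 𝐱 12 (σ (σ t)))) (μ := ζ ^ (2 : ℤ)) (ν := (ζ : K)⁻¹ * σ ζ * σ (σ ζ))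
    (h := goodD4.tor K c) (fun t u => by
      simp only [map_add, xN_add]
      rw [((c1 _ _).mul_left (c2 _ _)).mul_mul_mul_comm, (c3 _ _).mul_mul_mul_comm]) (fun t => by
      rw [conj2, conj2, tor_xN goodD4 c (e := ![2, -1, 0, 0]) (by decide +kernel), tor_xN goodD4 c (e := ![0, -1, 2, 0]) (by decide +kernel),
        tor_xN goodD4 c (e := ![0, -1, 0, 2]) (by decide +kernel)]
      erw [Fin.prod_univ_four, Fin.prod_univ_four, Fin.prod_univ_four]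
      simp [c, zpow_two]) (fun t => by
      rw [conj2, conj2, tor_xN' hw c (e := ![-1, 0, 1, 1]) (by decide +kernel), tor_xN' hw c (e := ![1, 0, -1, 1]) (by decide +kernel),
        tor_xN' hw c (e := ![1, 0, 1, -1]) (by decide +kernel)]
      erw [Fin.prod_univ_four, Fin.prod_univ_four, Fin.prod_univ_four]
      simp [c, σ3, mul_comm, mul_left_comm, mul_assoc]) (tor_comm hw c) (by simpa using z1) (fun e => by
      have e1 := congrArg σ e
      have e2 := congrArg σ e1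
      simp only [map_mul, map_inv₀, σ3, map_one] at e1 e2
      field_simp at e e1 e2
      grind) (spn12 hζ dvd_rfl) m1 m2
  obtain ⟨d1, d1', e1⟩ := rep_xN hw 1 (r := 18) (s := 17) (by decide +kernel)
  obtain ⟨d2, -, e2⟩ := rep_xN hw 1 (r := 13) (s := 20) (by decide +kernel)
  obtain ⟨d3, -, e3⟩ := rep_xN hw 1 (r := 12) (s := 21) (by decide +kernel)
  obtain ⟨d4, d4', e4⟩ := rep_xN hw 2 (r := 22) (s := 14) (by decide +kernel)
  have b1 := cj (pow_mem a2 1) (a1 1)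
  simp only [conj2 (n ^ 1), e1, e2, e3, map_one, mul_one] at b1
  have b2 : ∀ t, 𝐱 22 (t * d1 + (-σ t * d2 + -σ (σ t) * d3)) ∈ M := fun t => by
    simpa [xN_add] using mem_of_comm (comm2 (chev1 goodD4 (k := 22) (e := -1) (by decide +kernel) _ _) (comm2
      (chev1 goodD4 (k := 22) (e := 1) (by decide +kernel) _ _) (chev1 goodD4 (k := 22) (e := 1) (by decide +kernel) _ _)
      (c12 _ _) (c13 _ _) (c9 _ _) (c11 _ _)) ((c4 _ _).mul_right (c5 _ _)) ((c6 _ _).mul_left (c7 _ _)) ((c8 _ _).mul_right (c9 _ _))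
      ((c10 _ _).mul_right (c11 _ _))) (a1 t) b1
  obtain ⟨t₀, b3⟩ : ∃ t₀, t₀ * d1 + (-σ t₀ * d2 + -σ (σ t₀) * d3) ≠ 0 := by
    by_contra! a
    have a0 := a 1
    have a1 := a ζ
    have a2 := a (ζ * ζ)
    simp only [map_one, map_mul] at a0 a2
    refine mul_ne_zero (mul_ne_zero d1' (sub_ne_zero.2 z2)) (sub_ne_zero.2 fun e : σ (σ ζ) = ζ => z2 (by simpa only [σ3] using (congrArg σ e).symm)) ?_
    linear_combination a2 - (σ ζ + σ (σ ζ)) * a1 + σ ζ * σ (σ ζ) * a0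
  refine T_le_of (G := goodD4) S h.o hw a2 (S.T_le_Fix hn) (k₁ := (0, true)) (k₂ := (1, true)) (fun y hy => ?_) (fun y hy => ?_)
    (by decide +kernel)
  · obtain ⟨t, ht, rfl⟩ := (h.XP0 y).1 hy
    refine line (V := fun t => t * d1 + (-σ t * d2 + -σ (σ t) * d3)) (fun a t ha => ?_) b3 b2 (pow_mem a2 2) d4' e4 (fun t ht => ?_) t ht
    · rw [← hσ] at ha
      simp only [map_mul, ha]; ring
    · have := (S.mem_Fix.1 (S.T_le_Fix (hM ht))).2
      erw [← x4_pos 1, S.s_pos, h.τ, h.g] at this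
      exact (X4 K).x_injective _ this
  · obtain ⟨t, rfl⟩ := (hφ y).1 hy
    exact a1 t

end D4

section E6
local notation "𝐱" => xN (RG.toRG0 (Good.rg goodE6 K))

set_option backward.isDefEq.respectTransparency false in
theorem e6_two (hq : IsPrimePow q) (hK : Fintype.card K = q ^ 2) : Gen2 (twistedE6 K q) := by
  obtain ⟨S, h⟩ := exists_E6 hq hK
  rw [← h.T_eq]
  obtain ⟨ζ, hζ⟩ := IsCyclic.exists_generator (α := Kˣ)
  obtain ⟨σ, hσ⟩ := exists_frob hq two_ne_zero hK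
  have σ2 : ∀ t, σ (σ t) = t := fun t => by simpa only [h.g, hσ] using h.gg 0 0 t
  obtain ⟨z1, z2⟩ := gen_frob hζ h.hq le_rfl hK
  rw [← hσ] at z2
  have cm : ∀ p ∈ [(36, 56), (19, 9), (56, 19), (36, 9), (20, 36), (20, 19)], ∀ t u : K, Commute (𝐱 p.1 t) (𝐱 p.2 u) :=
    fun p hp => Cm.commute _ (by revert p; decide +kernel)
  simp only [List.forall_mem_cons] at cm
  obtain ⟨c1, c2, c3, c4, c5, c6, -⟩ := cm
  have hφ : ∀ y, y ∈ S.XP 3 ↔ ∃ t, y = 𝐱 56 t * 𝐱 36 (σ t) := fun y => by simp only [hσ]; exact h.XP3 y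
  have hw : (goodE6.rg K).Rep (S.nJ 0 * S.nJ 1 * S.nJ 2 * S.nJ 3) (goodE6.R.wp ([1, 3, 2, 4, 0, 5] : List (Fin 6))) := by
    have := (((S.rep_nJ 0).mul (S.rep_nJ 1)).mul (S.rep_nJ 2)).mul (S.rep_nJ 3)
    rwa [h.wJ_eq', h.wJ_eq', h.wJ_eq', h.wJ_eq', ← RS.wp_append, ← RS.wp_append, ← RS.wp_append] at this
  have hn := mul_mem (mul_mem (mul_mem (S.nJ_mem_T 0) (S.nJ_mem_T 1)) (S.nJ_mem_T 2)) (S.nJ_mem_T 3)
  generalize S.nJ 0 * S.nJ 1 * S.nJ 2 * S.nJ 3 = n at hw hn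
  let c : Fin 6 → Kˣ := ![ζ, 1, 1, 1, 1, Units.map (σ : K →* K) ζ]
  have hh := (h.H_eq.ge ⟨c, h.mem_CFix.2 fun i => Units.ext (by fin_cases i <;> simp [c, τ6, ← hσ, σ2]), rfl⟩).2
  refine gen2_of' hh (mul_mem (S.XP_le 3 ((hφ _).2 ⟨1, rfl⟩)) (inv_mem hn)) fun M hM m1 m2 => ?_
  obtain ⟨a1, a2⟩ := stb' (φ := fun t => 𝐱 56 t * 𝐱 36 (σ t)) (μ := ζ ^ (2 : ℤ)) (ν := (ζ : K)⁻¹)
    (h := goodE6.tor K c) (fun t u => by
      simp only [map_add, xN_add]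
      rw [(c1 _ _).mul_mul_mul_comm]) (fun t => by
      rw [conj2, tor_xN goodE6 c (e := ![2, 0, -1, 0, 0, 0]) (by decide +kernel), tor_xN goodE6 c (e := ![0, 0, 0, 0, -1, 2]) (by decide +kernel)]
      erw [Fin.prod_univ_six, Fin.prod_univ_six]
      simp [c, zpow_two]) (fun t => by
      rw [conj2, tor_xN' hw c (e := ![-1, -1, 0, 0, 1, 0]) (by decide +kernel), tor_xN' hw c (e := ![0, -1, 1, 0, 0, -1]) (by decide +kernel)]
      erw [Fin.prod_univ_six, Fin.prod_univ_six]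
      simp [c]) (tor_comm hw c) (by simpa using z1) (fun e => z1 (by rw [inv_eq_one.1 e, one_pow])) (spn12 hζ dvd_rfl) m1 m2
  obtain ⟨d1, -, e1⟩ := rep_xN hw 3 (r := 56) (s := 19) (by decide +kernel)
  obtain ⟨d2, d2', e2⟩ := rep_xN hw 3 (r := 36) (s := 9) (by decide +kernel)
  obtain ⟨d4, d4', e4⟩ := rep_xN hw 4 (r := 20) (s := 46) (by decide +kernel)
  have b1 := cj (pow_mem a2 3) (a1 1)
  simp only [conj2 (n ^ 3), e1, e2, map_one, mul_one] at b1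
  rw [(c2 _ _).eq] at b1
  have b2 : ∀ t, 𝐱 20 (-t * d2 + σ t * d1) ∈ M := fun t => by
    simpa [xN_add] using mem_of_comm (comm2 (chev1 goodE6 (k := 20) (e := 1) (by decide +kernel) _ _)
      (chev1 goodE6 (k := 20) (e := -1) (by decide +kernel) _ _) (c3 _ _) (c4 _ _) (c5 _ _) (c6 _ _)) (a1 t) b1
  obtain ⟨t₀, b3⟩ : ∃ t₀, -t₀ * d2 + σ t₀ * d1 ≠ 0 := by
    by_contra! a
    have a0 := a 1
    rw [map_one] at a0
    exact mul_ne_zero d2' (sub_ne_zero.2 z2) (by linear_combination a ζ - σ ζ * a0)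
  refine T_le_of (G := goodE6) S h.o hw a2 (S.T_le_Fix hn) (k₁ := (0, true)) (k₂ := (3, true)) (fun y hy => ?_) (fun y hy => ?_)
    (by decide +kernel)
  · obtain ⟨t, ht, rfl⟩ := (h.XP0 y).1 hy
    refine line (V := fun t => -t * d2 + σ t * d1) (fun a t ha => ?_) b3 b2 (pow_mem a2 4) d4' e4 (fun t ht => ?_) t ht
    · rw [← hσ] at ha
      simp only [map_mul, ha]; ring
    · have := (S.mem_Fix.1 (S.T_le_Fix (hM ht))).2
      erw [← x6_pos 1, S.s_pos, h.τ, h.g] at this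
      exact (X6 K).x_injective _ this
  · obtain ⟨t, rfl⟩ := (hφ y).1 hy
    exact a1 t

end E6

end Cfsg.Agent.H6.Two
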