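import Cfsg.Agent.H6.TwoD
import Cfsg.Agent.H15.TwF4

/-! Two-element generation of the large Ree groups. -/

set_option autoImplicit false

namespace Cfsg.Agent.H6.Two

open Subgroup Cfsg.Lie Cfsg.Lie.ChevalleyDatum Cfsg.Agent.H14 Cfsg.Agent.H15

variable {K : Type*} [Field K] [Fintype K]

theorem spn_pow {ζ : Kˣ} (hζ : ∀ u, u ∈ zpowers ζ) {μ : K} {k : ℕ} (h : μ ^ k = ζ) : Spn μ := fun P h0 h1 ha hm =>
  spn12 hζ (one_dvd 2) P h0 h1 ha fun a b => by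
    rw [zpow_one, ← h]
    clear h
    induction k with
    | zero => simpa using b
    | succ k ih => simpa [pow_succ', mul_assoc] using hm _ ih

theorem mul_aux {Γ : Type*} [Group Γ] {a a' b b' z z' y : Γ} (h : b * a' = a' * b * y) (c1 : Commute a' z) (c2 : Commute b' (y * z)) :
    a * (b * z) * (a' * (b' * z')) = a * a' * (b * b' * (y * z * z')) := by
  calc _ = a * b * (z * a') * b' * z' := by group
    _ = a * (b * a') * z * b' * z' := by rw [← c1.eq]; group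
    _ = a * a' * b * (y * z * b') * z' := by rw [h]; group
    _ = _ := by rw [← c2.eq]; group

local notation "𝐱" => xN (RG.toRG0 (Good.rg goodF4 K))

set_option backward.isDefEq.respectTransparency false in
theorem f4_two {m : ℕ} (hm : 1 ≤ m) (hK : Fintype.card K = 2 ^ (2 * m + 1)) : Gen2 (twistedF4 K (2 ^ m)) := by
  obtain ⟨_, θ, hθ, θθ⟩ := exists_theta Nat.prime_two hK
  obtain ⟨S, h⟩ := exists_F4' θ θθ
  rw [← h.T_eq hθ]
  obtain ⟨ζ, hζ⟩ := IsCyclic.exists_generator (α := Kˣ)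
  have n0 := ζ.ne_zero
  have n1 : θ ζ ≠ 0 := by simp
  have n2 : (ζ : K) ≠ 1 := by
    simpa using gen_pow_ne hζ one_ne_zero (hK ▸ lt_of_lt_of_le (by norm_num) (Nat.pow_le_pow_right two_pos (show 3 ≤ 2 * m + 1 by omega)))
  have n3 : θ ζ ≠ ζ := fun e => by have := θθ ζ; rw [e, e] at this; grind
  have two : (2 : K) = 0 := CharTwo.two_eq_zero
  have cm : ∀ r s : ℕ, Cm chevF4 r s → ∀ {t u : K}, Commute (𝐱 r t) (𝐱 s u) := fun r s h => Cm.commute _ h _ _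
  have cz : ∀ r : ℕ, Cm chevF4 r 11 ∧ Cm chevF4 r 5 → ∀ {t u v : K}, Commute (𝐱 r t) (𝐱 11 u * 𝐱 5 v) := fun r h _ _ _ =>
    (cm _ _ h.1).mul_right (cm _ _ h.2)
  have cy : ∀ r : ℕ, Cm chevF4 r 28 ∧ Cm chevF4 r 30 → ∀ {t u v : K}, Commute (𝐱 r t) (𝐱 28 u * 𝐱 30 v) := fun r h _ _ _ =>
    (cm _ _ h.1).mul_right (cm _ _ h.2)
  have xx : ∀ (r : Fin 48) t, (XF K).x r t = 𝐱 r t := fun r t => (xF r t).symm
  let ψ : K → K → GL chevF4.Idx K := fun t u => 𝐱 27 (θ t) * (𝐱 25 t * (𝐱 28 (θ t * t + u) * 𝐱 30 (θ u ^ 2)))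
  have hψ : ∀ y, y ∈ S.XP 1 ↔ ∃ t u, y = ψ t u := fun y => by have := h.XP1 y; simp only [xx] at this; exact this
  have ψm : ∀ t u t' u', ψ t u * ψ t' u' = ψ (t + t') (u + u' + θ t * t') := fun t u t' u' => by
    have a1 : ∀ t u v : K, Commute (𝐱 27 t) (𝐱 28 u * 𝐱 30 v) := fun t u v => Commute.mul_right (by
      have := chev1 goodF4 (r := 27) (s := 28) (k := 30) (e := 2) (by decide +kernel) t u
      simp only [Int.cast_ofNat, two, neg_zero, zero_mul, xN_zero, mul_one] at this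
      exact this.symm) (cm 27 30 (by decide +kernel))
    have a2 := commF_B2 (K := K) (a := 27) (b := 25) (c := 28) (d := 30) (e₁ := -1) (e₂ := -1) (by decide +kernel) (by decide) (by decide) (θ t') t
    simp only [xx] at a2
    replace a2 : 𝐱 25 t * 𝐱 27 (θ t') = 𝐱 27 (θ t') * 𝐱 25 t * (𝐱 28 (θ t' * t) * 𝐱 30 (θ t' ^ 2 * t)) := a2
    have a3 : ∀ a b c d : K, 𝐱 28 a * 𝐱 30 b * (𝐱 28 c * 𝐱 30 d) = 𝐱 28 (a + c) * 𝐱 30 (b + d) := fun a b c d => by
      rw [xN_add, xN_add, (cm 30 28 (by decide +kernel)).mul_mul_mul_comm]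
    refine (mul_aux a2 (a1 _ _ _) (by rw [a3]; exact cy 25 (by decide +kernel))).trans ?_
    rw [a3, a3, ← xN_add, ← xN_add]
    simp only [ψ, map_add, map_mul, CharTwo.add_sq, mul_pow, θθ]
    congr 4
    · linear_combination -(θ t * t') * two
    · ring
  have ψ0 : ψ 0 0 = 1 := by simp [ψ, xN_zero]
  have hw : (goodF4.rg K).Rep (S.nJ 0 * S.nJ 1) (goodF4.R.wp ([0, 3, 1, 2, 1, 2] : List (Fin 4))) := by
    have := (S.rep_nJ 0).mul (S.rep_nJ 1)
    rwa [h.wJ_eq', h.wJ_eq', ← RS.wp_append] at this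
  have hn := mul_mem (S.nJ_mem_T 0) (S.nJ_mem_T 1)
  generalize S.nJ 0 * S.nJ 1 = n at hw hn
  let c : Fin 4 → Kˣ := ![1, Units.map (θ : K →* K) ζ, ζ, 1]
  have hh := (h.H_eq.ge ⟨c, h.mem_CFix.2 ⟨(map_one θ).symm, rfl⟩, rfl⟩).2
  have t1 : θ (ζ ^ 2 / θ ζ ^ 2) = θ ζ ^ 2 / ζ := by rw [map_div₀, map_pow, map_pow, θθ]
  have t2 : θ (θ ζ ^ 2 / ζ) = ζ / θ ζ := by rw [map_div₀, map_pow, θθ]
  have h1 : ∀ t u, goodF4.tor K c * ψ t u * (goodF4.tor K c)⁻¹ = ψ (ζ ^ 2 / θ ζ ^ 2 * t) (ζ * u) := fun t u => by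
    simp only [ψ]
    rw [conj2, conj2, conj2, tor_xN goodF4 c (e := ![-1, 2, -1, 0]) (by decide +kernel), tor_xN goodF4 c (e := ![0, -2, 2, -1]) (by decide +kernel),
      tor_xN goodF4 c (e := ![-1, 0, 1, -1]) (by decide +kernel), tor_xN goodF4 c (e := ![-2, 2, 0, -1]) (by decide +kernel), map_mul, t1]
    erw [Fin.prod_univ_four, Fin.prod_univ_four, Fin.prod_univ_four, Fin.prod_univ_four]
    congr 2 <;> [skip; congr 2; congr 2] <;> simp [c, zpow_two, zpow_neg, - mul_eq_mul_right_iff] <;> field_simp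
  have h2 : ∀ t u, n⁻¹ * goodF4.tor K c * n * ψ t u * (n⁻¹ * goodF4.tor K c * n)⁻¹ = ψ (θ ζ ^ 2 / ζ * t) (θ ζ * u) := fun t u => by
    simp only [ψ]
    rw [conj2, conj2, conj2, tor_xN' hw c (e := ![-1, -1, 1, 0]) (by decide +kernel), tor_xN' hw c (e := ![0, 2, -1, -1]) (by decide +kernel),
      tor_xN' hw c (e := ![-1, 1, 0, -1]) (by decide +kernel), tor_xN' hw c (e := ![-2, 0, 1, -1]) (by decide +kernel), map_mul, t2, map_mul,
      mul_pow, θθ]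
    erw [Fin.prod_univ_four, Fin.prod_univ_four, Fin.prod_univ_four, Fin.prod_univ_four]
    congr 2 <;> [skip; congr 2; congr 2] <;> simp [c, zpow_two, zpow_neg, - mul_eq_mul_right_iff] <;> field_simp
  refine gen2_of' hh (mul_mem (S.XP_le 1 ((hψ _).2 ⟨1, 0, rfl⟩)) (inv_mem hn)) fun M hM m1 m2 => ?_
  have a0 := stb (A := fun t x => ∃ u, x = ψ t u) (by rintro t u _ _ ⟨a, rfl⟩ ⟨b, rfl⟩; exact ⟨_, ψm _ _ _ _⟩) (by
      rintro t _ ⟨u, rfl⟩
      exact ⟨θ t * t - u, inv_eq_of_mul_eq_one_right (by rw [ψm, ← ψ0]; congr 1 <;> ring)⟩)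
    (by rintro t _ ⟨u, rfl⟩; exact ⟨_, h1 t u⟩) (by rintro t _ ⟨u, rfl⟩; exact ⟨_, h2 t u⟩) (tor_comm hw c)
    (fun e => n3 (by field_simp at e; grind)) (fun e => n3 (by rw [e, map_one] at t2; field_simp at t2; exact t2))
    (spn_pow hζ (k := 2 ^ m + 1) (by rw [pow_succ, ← hθ, t1]; field_simp)) ⟨0, rfl⟩ m1 m2
  have a1 : ∀ t u, ψ t u ∈ M := fun t u => by
    obtain ⟨_, b1, v, rfl⟩ := a0 t
    obtain ⟨_, b2, w, rfl⟩ := a0 1
    have := spn_pow hζ (pow_one _) (fun a => ψ 0 a ∈ M) (ψ0 ▸ one_mem _) (by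
        simpa [ψm, CharTwo.add_self_eq_zero] using mul_mem b2 b2) (fun a b ha hb => by simpa [ψm] using mul_mem ha hb)
      (fun a ha => by have := h1 0 a ▸ cj m1 ha; rwa [mul_zero] at this) (u - v)
    simpa [ψm] using mul_mem b1 this
  have a2 : n ∈ M := inv_mem_iff.1 ((mul_mem_cancel_left (a1 1 0)).1 m2)
  obtain ⟨d1, -, e1⟩ := rep_xN hw 1 (r := 27) (s := 13) (by decide +kernel)
  obtain ⟨d2, d2', e2⟩ := rep_xN hw 1 (r := 25) (s := 21) (by decide +kernel)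
  obtain ⟨d3, -, e3⟩ := rep_xN hw 1 (r := 28) (s := 11) (by decide +kernel)
  obtain ⟨d4, -, e4⟩ := rep_xN hw 1 (r := 30) (s := 5) (by decide +kernel)
  have b1 := cj (pow_mem a2 1) (a1 1 0)
  simp only [ψ, conj2 (n ^ 1), e1, e2, e3, e4, mul_one] at b1
  refine T_le_of (G := goodF4) S h.o hw a2 (S.T_le_Fix hn) (k₁ := (0, false)) (k₂ := (1, true)) (fun y hy => ?_) (fun y hy => ?_)
    (by decide +kernel)
  · have b2 := mem_of_comm (comm2 (chev1 goodF4 (k := 14) (e := -1) (by decide +kernel) _ _) (comm2 (z' := 1)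
      (chev1 goodF4 (k := 23) (e := 1) (by decide +kernel) _ _)
      (by rw [mul_one, ((cz 28 (by decide +kernel)).mul_left (cz 30 (by decide +kernel))).eq]) (cz 25 (by decide +kernel))
      (cy 21 (by decide +kernel)).symm (cy 23 (by decide +kernel)) (cz 23 (by decide +kernel)))
      ((cm 27 21 (by decide +kernel)).mul_right (cz 27 (by decide +kernel)))
      ((cm 13 25 (by decide +kernel)).mul_right (cy 13 (by decide +kernel))).symm
      ((cm 14 25 (by decide +kernel)).mul_right (cy 14 (by decide +kernel)))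
      ((cm 14 21 (by decide +kernel)).mul_right (cz 14 (by decide +kernel)))) (a1 (-(Classical.choose ((h.XM0 y).1 hy) / d2)) 0) b1
    have b3 := Classical.choose_spec ((h.XM0 y).1 hy)
    generalize Classical.choose ((h.XM0 y).1 hy) = s at b2 b3
    simp only [Int.cast_one, neg_mul, one_mul, mul_neg, neg_neg, div_mul_cancel₀ _ d2', mul_one] at b2
    obtain ⟨v, b2⟩ : ∃ v, 𝐱 14 v * 𝐱 23 s ∈ M := ⟨_, b2⟩
    have b4 := mul_mem (S.T_le_Fix (hM b2)) (inv_mem hy.2)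
    rw [xx, xx] at b3
    replace b3 : y = 𝐱 14 (θ s) * 𝐱 23 s := b3
    rw [b3] at b4 ⊢
    have b5 : 𝐱 14 v * 𝐱 23 s * (𝐱 14 (θ s) * 𝐱 23 s)⁻¹ = (XF K).x 14 (v + -θ s) := by
      rw [mul_inv_rev, mul_assoc, mul_inv_cancel_left, ← xN_neg, ← xN_add]; exact xF 14 _
    rw [b5] at b4
    replace b4 := (S.mem_Fix.1 b4).2
    by_cases e : v + -θ s = 0
    · rw [add_neg_eq_zero.1 e] at b2; exact b2
    · exact absurd ((S.ρ_eq e b4).symm.trans (S.ρ_eq e (h.s 14 23 (by decide +kernel) _))) (by decide)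
  · obtain ⟨t, u, rfl⟩ := (hψ y).1 hy
    exact a1 t u

end Cfsg.Agent.H6.Two
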