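import Cfsg.Agent.H6.TwoC

/-! Tools for two-element generation of the twisted groups. -/

set_option autoImplicit false

namespace Cfsg.Agent.H6.Two

open Subgroup Cfsg.Lie Cfsg.Lie.ChevalleyDatum Cfsg.Agent.H14 Cfsg.Agent.H15

section grp
variable {Γ : Type*} [Group Γ] {K : Type*} [Field K] {M : Subgroup Γ}

theorem comm2 {a a' b b' z z' : Γ} (h1 : b * a = a * b * z) (h2 : b' * a' = a' * b' * z') (c1 : Commute a b') (c2 : Commute a' b)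
    (c3 : Commute z a') (c4 : Commute z b') : b * b' * (a * a') = a * a' * (b * b') * (z * z') := by
  calc _ = b * (b' * a) * a' := by group
    _ = (b * a) * (b' * a') := by rw [← c1.eq]; group
    _ = a * b * (z * a') * b' * z' := by rw [h1, h2]; group
    _ = a * (b * a') * (z * b') * z' := by rw [c3.eq]; group
    _ = _ := by rw [← c2.eq, c4.eq]; group

theorem mem_of_comm {a b z : Γ} (h : b * a = a * b * z) (ha : a ∈ M) (hb : b ∈ M) : z ∈ M :=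
  (mul_mem_cancel_left (mul_mem ha hb)).1 (h ▸ mul_mem hb ha)

theorem stb {A : K → Γ → Prop} (ha : ∀ t u x y, A t x → A u y → A (t + u) (x * y)) (hi : ∀ t x, A t x → A (-t) x⁻¹) {h n x : Γ}
    {μ ν : K} (h1 : ∀ t x, A t x → A (μ * t) (h * x * h⁻¹)) (h2 : ∀ t x, A t x → A (ν * t) (n⁻¹ * h * n * x * (n⁻¹ * h * n)⁻¹))
    (c : Commute h (n⁻¹ * h * n)) (hμ : μ ≠ 1) (hν : ν ≠ 1) (sp : Spn μ) (hx : A 1 x) (m1 : h ∈ M) (m2 : x * n⁻¹ ∈ M) (t : K) :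
    ∃ y ∈ M, A t y := by
  have b1 := ha _ _ _ _ hx (h2 _ _ (hi _ _ hx))
  have b2 := ha _ _ _ _ (h1 _ _ b1) (hi _ _ b1)
  have b3 := mul_mem (cj m1 (cj m2 m1)) (inv_mem (cj m2 m1))
  generalize hn : n⁻¹ * h * n = h' at b1 b2 c
  have b4 : h * (x * n⁻¹ * h * (x * n⁻¹)⁻¹) * h⁻¹ * (x * n⁻¹ * h * (x * n⁻¹)⁻¹)⁻¹ =
      h * (x * (h' * x⁻¹ * h'⁻¹)) * h⁻¹ * (x * (h' * x⁻¹ * h'⁻¹))⁻¹ := by
    rw [show x * n⁻¹ * h * (x * n⁻¹)⁻¹ = x * (h' * x⁻¹ * h'⁻¹) * h' by rw [← hn]; group]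
    generalize x * (h' * x⁻¹ * h'⁻¹) = y
    calc _ = h * y * (h' * h⁻¹ * h'⁻¹) * y⁻¹ := by group
      _ = _ := by rw [c.symm.inv_right.mul_inv_cancel]
  have b5 : μ * (1 + ν * -1) + -(1 + ν * -1) ≠ 0 := fun e =>
    mul_ne_zero (sub_ne_zero.2 hμ) (sub_ne_zero.2 hν) (by linear_combination -e)
  have := sp (fun a => ∃ y ∈ M, A (a * (μ * (1 + ν * -1) + -(1 + ν * -1))) y)
    ⟨1, one_mem _, by simpa using ha _ _ _ _ hx (hi _ _ hx)⟩ ⟨_, b4 ▸ b3, by rwa [one_mul]⟩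
    (fun a b ⟨y, y1, y2⟩ ⟨z, z1, z2⟩ => ⟨_, mul_mem y1 z1, add_mul a b _ ▸ ha _ _ _ _ y2 z2⟩)
    (fun a ⟨y, y1, y2⟩ => ⟨_, cj m1 y1, mul_assoc μ a _ ▸ h1 _ _ y2⟩) (t / (μ * (1 + ν * -1) + -(1 + ν * -1)))
  rwa [div_mul_cancel₀ _ b5] at this

theorem stb' {φ : K → Γ} (ha : ∀ t u, φ (t + u) = φ t * φ u) {h n : Γ}
    {μ ν : K} (h1 : ∀ t, h * φ t * h⁻¹ = φ (μ * t)) (h2 : ∀ t, n⁻¹ * h * n * φ t * (n⁻¹ * h * n)⁻¹ = φ (ν * t))
    (c : Commute h (n⁻¹ * h * n)) (hμ : μ ≠ 1) (hν : ν ≠ 1) (sp : Spn μ) (m1 : h ∈ M) (m2 : φ 1 * n⁻¹ ∈ M) :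
    (∀ t, φ t ∈ M) ∧ n ∈ M := by
  have h0 : φ 0 = 1 := by simpa using ha 0 0
  have : ∀ t, φ t ∈ M := fun t => by
    obtain ⟨_, a, rfl⟩ := stb (A := fun t x => x = φ t) (by rintro t u _ _ rfl rfl; rw [ha]) (by
      rintro t _ rfl; exact (eq_inv_of_mul_eq_one_left (by rw [← ha, neg_add_cancel, h0])).symm)
      (by rintro t _ rfl; exact h1 t) (by rintro t _ rfl; exact h2 t) c hμ hν sp rfl m1 m2 t
    exact a
  exact ⟨this, inv_mem_iff.1 ((mul_mem_cancel_left (this 1)).1 m2)⟩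

end grp

variable {D : ChevalleyDatum} {G : Good D} {K : Type*} [Field K] {M : Subgroup (GL D.Idx K)}

local notation "𝐱" => xN (RG.toRG0 (Good.rg G K))

theorem wp_pow_val (l : List (Fin D.rank)) (k : ℕ) (r : Fin D.nroots) :
    ((G.R.wp l ^ k) r : ℕ) = (wrefl D (l.map Fin.val))^[k] r := by
  induction k with
  | zero => rfl
  | succ k ih => rw [pow_succ', Equiv.Perm.mul_apply, wp_val, ih, Function.iterate_succ_apply']

theorem rep_xN {n : GL D.Idx K} {l : List (Fin D.rank)} (hw : (G.rg K).Rep n (G.R.wp l)) (k : ℕ) {r s : ℕ}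
    (h : r < D.nroots ∧ (wrefl D (l.map Fin.val))^[k] r = s) : ∃ c : K, c ≠ 0 ∧ ∀ t, n ^ k * 𝐱 r t * (n ^ k)⁻¹ = 𝐱 s (c * t) := by
  obtain ⟨hr, rfl⟩ := h
  lift r to Fin D.nroots using hr
  obtain ⟨c, hc⟩ := ((G.rg K).rep_pow hw k).conj_x r
  rw [← wp_pow_val (G := G)]
  exact ⟨c, c.ne_zero, by simpa using hc⟩

variable (G) in
theorem tor_xN (c : Fin D.rank → Kˣ) {r : ℕ} {e : Fin D.rank → ℤ} (h : r < D.nroots ∧ ∀ i : Fin D.rank, D.cartan i r = e i) (t : K) :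
    G.tor K c * 𝐱 r t * (G.tor K c)⁻¹ = 𝐱 r ((∏ i, c i ^ e i : Kˣ) * t) := by
  obtain ⟨hr, h⟩ := h
  lift r to Fin D.nroots using hr
  simp only [xN_val, tor_conj, h]

theorem tor_xN' {n : GL D.Idx K} {l : List (Fin D.rank)} (hw : (G.rg K).Rep n (G.R.wp l)) (c : Fin D.rank → Kˣ) {r : ℕ}
    {e : Fin D.rank → ℤ} (h : r < D.nroots ∧ wrefl D (l.map Fin.val) r < D.nroots ∧
      ∀ i : Fin D.rank, D.cartan i (wrefl D (l.map Fin.val) r) = e i) (t : K) :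
    n⁻¹ * G.tor K c * n * 𝐱 r t * (n⁻¹ * G.tor K c * n)⁻¹ = 𝐱 r ((∏ i, c i ^ e i : Kˣ) * t) := by
  obtain ⟨d, -, hd⟩ := rep_xN hw 1 ⟨h.1, rfl⟩
  have := tor_xN G c h.2 (d * t)
  rw [Function.iterate_one, pow_one] at hd
  rw [mul_left_comm, ← hd, ← hd] at this
  rw [← mul_left_cancel_iff (a := n), ← mul_right_cancel_iff (a := n⁻¹), ← this]; group

theorem tor_comm {n : GL D.Idx K} {w : Equiv.Perm (Fin D.nroots)} (hw : (G.rg K).Rep n w) (c : Fin D.rank → Kˣ) :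
    Commute (G.tor K c) (n⁻¹ * G.tor K c * n) := by
  have := hw.inv.conj_mem_H (tor_mem_H G c)
  rw [inv_inv, ← G.tor_range] at this
  obtain ⟨d, hd⟩ := this
  exact hd ▸ (Commute.all c d).map _

variable (G) in
theorem chev1 {r s k : ℕ} {e : ℤ} (h : r < D.nroots ∧ s < D.nroots ∧ s ≠ r ∧ s ≠ D.neg r ∧ D.commTerms r s = [(k, e, 1, 1)]) (t u : K) :
    𝐱 s u * 𝐱 r t = 𝐱 r t * 𝐱 s u * 𝐱 k (-e * t * u) := by
  have := chev_xN G h.1 h.2.1 h.2.2.1 h.2.2.2.1 t u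
  simpa [commWord, h.2.2.2.2] using this

theorem conj2 {Γ : Type*} [Group Γ] (g a b : Γ) : g * (a * b) * g⁻¹ = g * a * g⁻¹ * (g * b * g⁻¹) := by group

/-- the root is positive or negative and lies in the span of an orbit -/
def InP (D : ChevalleyDatum) {κ : Type} (o : Fin D.rank → κ) (k : κ × Bool) (r : ℕ) : Prop :=
  (D.IsPosRoot r ↔ k.2) ∧ ∀ i, o i ≠ k.1 → (D.coroot.getD r #[]).getD i 0 = 0

instance {κ : Type} [DecidableEq κ] (o : Fin D.rank → κ) (k : κ × Bool) (r : ℕ) : Decidable (InP D o k r) :=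
  inferInstanceAs (Decidable (_ ∧ _))

theorem T_le_of {κ : Type} (S : TwO (G.rg K) κ) {o : Fin D.rank → κ} (ho : S.o = o) {n : GL D.Idx K} {l : List (Fin D.rank)}
    (hw : (G.rg K).Rep n (G.R.wp l)) (hn : n ∈ M) (hf : n ∈ S.Fix) {k₁ k₂ : κ × Bool} (h1 : cond k₁.2 (S.XP k₁.1) (S.XM k₁.1) ≤ M)
    (h2 : cond k₂.2 (S.XP k₂.1) (S.XM k₂.1) ≤ M) (h : ∀ k, ∃ j < 12, ∃ k' ∈ [k₁, k₂], ∀ r < D.nroots,
      InP D o k r → InP D o k' ((wrefl D (l.map Fin.val))^[j] r)) : S.T ≤ M := by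
  have e : ∀ k : κ × Bool, cond k.2 (S.XP k.1) (S.XM k.1) = (G.rg K).gen {r | InP D o k r} ⊓ S.Fix := by
    rintro ⟨k, _ | _⟩ <;> simp only [cond, TwO.XP, TwO.XM] <;> congr 2 <;> ext r <;>
      simp [mem_PJ_iff, mem_MJ_iff, InP, TwO.J, ho]
  have : ∀ k : κ × Bool, cond k.2 (S.XP k.1) (S.XM k.1) ≤ M := fun k y hy => by
    obtain ⟨j, -, k', h3, h4⟩ := h k
    have h5 : cond k'.2 (S.XP k'.1) (S.XM k'.1) ≤ M := by
      simp only [List.mem_cons, List.not_mem_nil, or_false] at h3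
      rcases h3 with rfl | rfl <;> assumption
    rw [e] at hy h5
    have := h5 ⟨((G.rg K).rep_pow hw j).conj_mem_gen (fun r hr => show InP D o k' _ by
      rw [wp_pow_val]; exact h4 r r.2 hr) hy.1, S.conj_mem_Fix (pow_mem hf j) hy.2⟩
    rwa [mul_mem_cancel_right (inv_mem (pow_mem hn j)), mul_mem_cancel_left (pow_mem hn j)] at this
  exact S.T_le (fun k => this (k, true)) fun k => this (k, false)

/-- a line of root elements over the fixed field -/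
theorem line {r s q : ℕ} {V : K → K} (hV : ∀ a t, a ^ q = a → V (a * t) = a * V t) {t₀ : K} (h0 : V t₀ ≠ 0) (h : ∀ t, 𝐱 r (V t) ∈ M)
    {n : GL D.Idx K} (hn : n ∈ M) {c : K} (hc : c ≠ 0) (e : ∀ t, n * 𝐱 r t * n⁻¹ = 𝐱 s (c * t))
    (hf : ∀ t, 𝐱 s t ∈ M → t ^ q = t) (t : K) (ht : t ^ q = t) : 𝐱 s t ∈ M := by
  have a : ∀ t, 𝐱 s (c * V t) ∈ M := fun t => e _ ▸ cj hn (h t)
  have := a (t / (c * V t₀) * t₀)
  rwa [hV _ _ (by rw [div_pow, ht, hf _ (a _)]), mul_left_comm, div_mul_cancel₀ _ (mul_ne_zero hc h0)] at this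

theorem gen2_of' {Γ : Type*} [Group Γ] {H : Subgroup Γ} {a b : Γ} (ha : a ∈ H) (hb : b ∈ H)
    (h : ∀ M : Subgroup Γ, M ≤ H → a ∈ M → b ∈ M → H ≤ M) : Gen2 H :=
  gen2_of ha hb fun M a b => (h (M ⊓ H) inf_le_right ⟨a, ha⟩ ⟨b, hb⟩).trans inf_le_left

end Cfsg.Agent.H6.Two
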