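import Cfsg.Agent.H8.TI1
import Cfsg.Agent.H8.Deg2
import Cfsg.Prelude.Def_Transfer

/-! Characters of extraspecial groups. -/

set_option autoImplicit false

open Cfsg Cfsg.Agent.H4 Cfsg.Agent.H5
open scoped ComplexConjugate

namespace Cfsg.Agent.H6

variable {P : Type*} [Group P] [Finite P] {p n : ℕ} [hp : Fact p.Prime]

theorem xsp_index (hP : IsExtraspecial p P) (hcard : Nat.card P = p ^ (2 * n + 1)) :
    (Subgroup.center P).index = p ^ (2 * n) := by
  have h := (Subgroup.center P).card_mul_index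
  rw [hP.2, hcard, pow_succ, mul_comm (p ^ (2 * n))] at h
  exact Nat.eq_of_mul_eq_mul_left hp.out.pos h

theorem eq_bot_of_inf_center {p : ℕ} [Fact p.Prime] (hP : IsPGroup p P) {K : Subgroup P}
    [K.Normal] (h : K ⊓ Subgroup.center P = ⊥) : K = ⊥ := by
  haveI := hP.isNilpotent
  by_contra hK
  haveI : Nontrivial K := (Subgroup.nontrivial_iff_ne_bot K).2 hK
  have hPK : IsPGroup p (ConjAct P) := hP.of_equiv ConjAct.toConjAct
  have hK' : IsPGroup p K := hP.to_subgroup K
  obtain ⟨k, hk⟩ := hK'.exists_card_eq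
  have hd : p ∣ Nat.card K := by
    rw [hk]
    refine dvd_pow_self p ?_
    rintro rfl
    exact (Finite.one_lt_card (α := K)).ne' (by simpa using hk)
  obtain ⟨b, hb, hb1⟩ := hPK.exists_fixed_point_of_prime_dvd_card_of_fixed_point K hd
    (a := 1) (fun g => smul_one g)
  have : (b : P) ∈ K ⊓ Subgroup.center P := by
    refine ⟨b.2, Subgroup.mem_center_iff.2 fun g => ?_⟩
    have h1 := congrArg Subtype.val (hb (ConjAct.toConjAct g))
    simp only [ConjAct.Subgroup.val_conj_smul, ConjAct.smul_def, ConjAct.ofConjAct_toConjAct] at h1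
    exact mul_inv_eq_iff_eq_mul.1 h1
  rw [h, Subgroup.mem_bot] at this
  exact hb1 (Subtype.ext this).symm

theorem xsp_faithful (hP : IsExtraspecial p P) {χ : P → ℂ} (hχ : IsIrrCharacter P χ)
    (h : ¬ Subgroup.center P ≤ charKer χ) : charKer χ = ⊥ := by
  haveI := hχ.isCharacter.charKer_normal
  refine eq_bot_of_inf_center hP.1.1 ?_
  have h1 : Nat.card (charKer χ ⊓ Subgroup.center P : Subgroup P) ∣ p := by
    rw [← hP.2]; exact Subgroup.card_dvd_of_le inf_le_right
  rcases (Nat.dvd_prime hp.out).1 h1 with h2 | h2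
  · exact Subgroup.eq_bot_of_card_eq _ h2
  · exfalso; apply h
    have := Subgroup.eq_of_le_of_card_ge (inf_le_right : charKer χ ⊓ Subgroup.center P ≤ _)
      (by rw [h2, hP.2])
    rw [← this]; exact inf_le_left

theorem xsp_comm_mem (hP : IsExtraspecial p P) (a b : P) :
    a * b * a⁻¹ * b⁻¹ ∈ Subgroup.center P := by
  rw [← hP.1.2.2]
  exact Subgroup.commutator_mem_commutator (Subgroup.mem_top a) (Subgroup.mem_top b)

theorem xsp_degree (hP : IsExtraspecial p P) (hcard : Nat.card P = p ^ (2 * n + 1))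
    {χ : P → ℂ} (hχ : IsIrrCharacter P χ) (h : ¬ Subgroup.center P ≤ charKer χ) :
    χ 1 = (p : ℂ) ^ n ∧ ∀ x, x ∉ Subgroup.center P → χ x = 0 := by
  have hc := hχ.charCenter_eq_center (xsp_faithful hP hχ h)
  constructor
  · have h1 := H8.degree_sq_eq_index_charCenter hχ (by rw [hc]; exact xsp_comm_mem hP)
    rw [hc, xsp_index hP hcard, mul_comm, pow_mul] at h1
    have h2 := Nat.pow_left_injective (by norm_num) h1
    rw [← hχ.isCharacter.charDegree_cast, h2]; push_cast; rfl
  · intro x hx
    exact H8.apply_eq_zero_of_not_mem_charCenter hχ (by rw [hc]; exact xsp_comm_mem hP x)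
      (by rwa [hc])

theorem xsp_pos (hP : IsExtraspecial p P) (hcard : Nat.card P = p ^ (2 * n + 1)) : 0 < n := by
  rcases Nat.eq_zero_or_pos n with rfl | h
  · exfalso
    have h1 := xsp_index hP hcard
    simp only [mul_zero, pow_zero, Subgroup.index_eq_one] at h1
    have h2 : commutator P = ⊥ := by
      rw [eq_bot_iff, commutator_def, Subgroup.commutator_le]
      intro a _ b _
      have : a ∈ Subgroup.center P := by rw [h1]; trivial
      rw [Subgroup.mem_bot, commutatorElement_def, ← Subgroup.mem_center_iff.1 this b]; group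
    have h3 := hP.2
    rw [← hP.1.2.2, h2, Subgroup.card_bot] at h3
    exact hp.out.one_lt.ne h3
  · exact h

end Cfsg.Agent.H6
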